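import Mathlib
import Cfsg.Agent.Ch.Exceptional
import Cfsg.Agent.Ch.Linear
import Cfsg.Agent.Ch.Induction
import Cfsg.Agent.Ch.TI
import Cfsg.Agent.Ch.PiPart
import Cfsg.Agent.GT.TransferFrobenius

/-!
# Groups in which all non-identity elements of a Sylow subgroup have the same centraliser
-/

set_option autoImplicit false
set_option linter.unusedSectionVars false

namespace Cfsg.Agent.Ch.BL

open Cfsg Subgroup
open scoped ComplexConjugate

variable {G : Type*} [Group G] {p : ℕ}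

/-- All non-identity elements of the Sylow subgroup `P` have the same centraliser. -/
structure Star (p : ℕ) (P : Subgroup G) : Prop where
  pg : IsPGroup p P
  idx : ¬ p ∣ P.index
  star : ∀ x ∈ P, x ≠ 1 → centralizer ({x} : Set G) = centralizer (P : Set G)

/-- The centraliser. -/
abbrev CC (P : Subgroup G) : Subgroup G := centralizer (P : Set G)

/-- The normaliser. -/
abbrev NN (P : Subgroup G) : Subgroup G := normalizer (P : Set G)

variable {P : Subgroup G}

theorem conj_mem (n : NN P) {x : G} (hx : x ∈ P) : (n : G)⁻¹ * x * n ∈ P := by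
  have := (mem_normalizer_iff.1 (inv_mem n.2) x).1 hx
  simpa using this

theorem conj_mem' (n : NN P) {x : G} (hx : x ∈ P) : (n : G) * x * (n : G)⁻¹ ∈ P :=
  (mem_normalizer_iff.1 n.2 x).1 hx

theorem conj_mem_CC (n : NN P) {c : G} (hc : c ∈ CC P) : (n : G)⁻¹ * c * n ∈ CC P := by
  intro x hx
  have := hc _ (conj_mem' n hx)
  calc x * ((n : G)⁻¹ * c * n) = (n : G)⁻¹ * (n * x * (n : G)⁻¹ * c) * n := by group
    _ = _ := by rw [this]; group

/-- Conjugation on the centraliser. -/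
def cj (n : NN P) : CC P ≃* CC P where
  toFun c := ⟨(n : G)⁻¹ * c * n, conj_mem_CC n c.2⟩
  invFun c := ⟨(n : G) * c * (n : G)⁻¹, by simpa using conj_mem_CC n⁻¹ c.2⟩
  left_inv c := Subtype.ext (by simp [mul_assoc])
  right_inv c := Subtype.ext (by simp [mul_assoc])
  map_mul' a b := Subtype.ext (by simp [mul_assoc])

theorem coe_cj (n : NN P) (c : CC P) : (cj n c : G) = (n : G)⁻¹ * c * n := rfl

/-- Conjugation on `P`. -/
def cjP (n : NN P) : P →* P where
  toFun c := ⟨(n : G)⁻¹ * c * n, conj_mem n c.2⟩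
  map_one' := Subtype.ext (by simp)
  map_mul' a b := Subtype.ext (by simp [mul_assoc])

theorem coe_cjP (n : NN P) (c : P) : (cjP n c : G) = (n : G)⁻¹ * c * n := rfl

theorem CC_le_NN : CC P ≤ NN P := centralizer_le_normalizer _

/-- The index of the centraliser in the normaliser. -/
noncomputable abbrev tt (P : Subgroup G) : ℕ := ((CC P).subgroupOf (NN P)).index

theorem card_NN : Nat.card (NN P) = Nat.card (CC P) * tt P := by
  rw [← card_mul_index ((CC P).subgroupOf (NN P)),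
    Nat.card_congr (subgroupOfEquivOfLe CC_le_NN).toEquiv]

theorem card_image_le {H α : Type*} [Group H] [Fintype H] [DecidableEq α] (K : Subgroup H)
    (F : H → α) (hF : ∀ n, ∀ c ∈ K, F (n * c) = F n) : (Finset.univ.image F).card ≤ K.index := by
  classical
  have := Fintype.ofFinite (H ⧸ K)
  calc (Finset.univ.image F).card ≤ (Finset.univ.image fun q : H ⧸ K => F q.out).card := by
        refine Finset.card_le_card fun a ha => ?_
        obtain ⟨n, -, rfl⟩ := Finset.mem_image.1 ha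
        obtain ⟨c, hc⟩ := QuotientGroup.mk_out_eq_mul K n
        exact Finset.mem_image.2 ⟨n, Finset.mem_univ _, by rw [hc, hF _ _ c.2]⟩
    _ ≤ _ := Finset.card_image_le.trans (by rw [Finset.card_univ, index, Nat.card_eq_fintype_card])

namespace Star

variable [hp : Fact p.Prime] (h : Star p P)
include h

theorem le_CC : P ≤ CC P := fun x hx => by
  by_cases h1 : x = 1
  · rw [h1]; exact one_mem _
  · rw [CC, ← h.star x hx h1]; exact mem_centralizer_singleton_iff.2 rfl

theorem comm (a b : P) : a * b = b * a := Subtype.ext (h.le_CC b.2 a a.2)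

/-- `P` inside its centraliser. -/
def io : P →* CC P := inclusion h.le_CC

theorem coe_io (x : P) : (h.io x : G) = x := rfl

theorem io_mem_center (x : P) : h.io x ∈ center (CC P) :=
  mem_center_iff.2 fun c => Subtype.ext (c.2 x x.2).symm

theorem cj_io (n : NN P) (x : P) : cj n (h.io x) = h.io (cjP n x) := rfl

variable [Finite G]

theorem mem_of_pelt {u : G} (hu : u ∈ CC P) {k : ℕ} (hk : orderOf u = p ^ k) : u ∈ P := by
  have : (P.subgroupOf (CC P)).Normal := ⟨fun x hx c => by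
    rw [mem_subgroupOf] at hx ⊢
    have := c.2 x hx
    simp only [Subgroup.coe_mul, InvMemClass.coe_inv, ← this, mul_inv_cancel_right]
    exact hx⟩
  have h1 : orderOf (QuotientGroup.mk' (P.subgroupOf (CC P)) ⟨u, hu⟩) ∣ p ^ k := by
    rw [← hk]
    exact (orderOf_map_dvd _ _).trans (by rw [← orderOf_coe])
  have h2 : orderOf (QuotientGroup.mk' (P.subgroupOf (CC P)) ⟨u, hu⟩) ∣ P.index :=
    (_root_.orderOf_dvd_natCard _).trans (relIndex_dvd_index_of_le h.le_CC)
  have h3 := Nat.eq_one_of_dvd_coprimes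
    ((hp.out.coprime_iff_not_dvd.2 h.idx).pow_left k) h1 h2
  rw [orderOf_eq_one_iff, QuotientGroup.mk'_apply, QuotientGroup.eq_one_iff, mem_subgroupOf] at h3
  exact h3

theorem mem_NN {x g : G} (hx : x ∈ P) (h1 : x ≠ 1) (hg : g⁻¹ * x * g ∈ P) : g ∈ NN P := by
  have key : ∀ {x g : G}, x ∈ P → x ≠ 1 → g⁻¹ * x * g ∈ P → ∀ y ∈ P, g⁻¹ * y * g ∈ P :=
    fun {x g} hx h1 hg y hy => by
      obtain ⟨k, hk⟩ := IsPGroup.iff_orderOf.1 h.pg ⟨y, hy⟩
      rw [← orderOf_coe] at hk
      refine h.mem_of_pelt (k := k) ?_ ?_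
      · rw [CC, ← h.star _ hg (fun e => h1 (by
          have : x = g * (g⁻¹ * x * g) * g⁻¹ := by group
          rw [this, e]; simp)), mem_centralizer_singleton_iff]
        have := h.le_CC hx y hy
        calc g⁻¹ * y * g * (g⁻¹ * x * g) = g⁻¹ * (y * x) * g := by group
          _ = _ := by rw [this]; group
      · rw [← hk]
        simpa using (MulAut.conj g⁻¹).orderOf_eq y
  rw [mem_normalizer_iff]
  intro y
  refine ⟨fun hy => ?_, fun hy => by simpa [mul_assoc] using key hx h1 hg _ hy⟩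
  have := key (g := g⁻¹) hg (fun e => h1 (by
    have : x = g * (g⁻¹ * x * g) * g⁻¹ := by group
    rw [this, e]; simp)) (by simpa [mul_assoc] using hx) y hy
  simpa using this

theorem mem_NN_of_singular {c g : G} (hc : c ∈ CC P) (hg : g⁻¹ * c * g ∈ CC P)
    (hs : p ∣ orderOf c) : g ∈ NN P := by
  obtain ⟨u, v, hu, -, e, -, ⟨k, hk⟩, hv⟩ := exists_p_parts hp.out c
  have h1 : u ≠ 1 := by
    rintro rfl
    rw [one_mul] at e
    exact hv (e ▸ hs)
  refine h.mem_NN (h.mem_of_pelt (zpowers_le.2 hc hu) hk) h1 (h.mem_of_pelt (k := k) ?_ ?_)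
  · obtain ⟨i, rfl⟩ := mem_zpowers_iff.1 hu
    have := zpow_mem hg i
    rwa [show (g⁻¹ * c * g) ^ i = g⁻¹ * c ^ i * g by simpa using conj_zpow (a := g⁻¹) (b := c) (i := i)]
      at this
  · rw [← hk]
    simpa using (MulAut.conj g⁻¹).orderOf_eq u

theorem exists_retr : ∃ r : CC P →* P, ∀ x, r (h.io x) = x := by
  have hS : (Nat.card (P.subgroupOf (CC P))) = p ^ (Nat.card (CC P)).factorization p := by
    have h1 : IsPGroup p (P.subgroupOf (CC P)) :=
      h.pg.of_equiv (subgroupOfEquivOfLe h.le_CC).symm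
    have h2 : ¬ p ∣ (P.subgroupOf (CC P)).index := fun e =>
      h.idx (e.trans (relIndex_dvd_index_of_le h.le_CC))
    exact (h1.toSylow h2).card_eq_multiplicity
  let S := Sylow.ofCard (P.subgroupOf (CC P)) hS
  have hN : normalizer ((S : Subgroup (CC P)) : Set (CC P)) ≤
      centralizer ((S : Subgroup (CC P)) : Set (CC P)) := fun g _ x hx =>
    Subtype.ext (g.2 x hx)
  have hc := MonoidHom.ker_transferSylow_isComplement' S hN
  let e := hc.symm.QuotientMulEquiv
  refine ⟨(subgroupOfEquivOfLe h.le_CC).toMonoidHom.comp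
    (e.toMonoidHom.comp (QuotientGroup.mk' _)), fun x => ?_⟩
  have : e (QuotientGroup.mk (h.io x)) = ⟨h.io x, x.2⟩ := by
    rw [← e.eq_symm_apply]; rfl
  exact congrArg (subgroupOfEquivOfLe h.le_CC) this

/-- A retraction of the centraliser onto `P`. -/
noncomputable def rt : CC P →* P := h.exists_retr.choose

theorem rt_io (x : P) : h.rt (h.io x) = x := h.exists_retr.choose_spec x

theorem rt_of_regular {c : CC P} (hc : ¬ p ∣ orderOf c) : h.rt c = 1 := by
  obtain ⟨k, hk⟩ := IsPGroup.iff_orderOf.1 h.pg (h.rt c)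
  rcases k with _ | k
  · exact orderOf_eq_one_iff.1 hk
  · exact absurd ((dvd_pow_self p k.succ_ne_zero).trans (hk ▸ orderOf_map_dvd h.rt c)) hc

theorem card_ker_rt : Nat.card h.rt.ker * Nat.card P = Nat.card (CC P) := by
  rw [← card_mul_index h.rt.ker, index_ker, MonoidHom.range_eq_top.2 fun x => ⟨_, h.rt_io x⟩,
    card_top]

theorem mem_CC_of_fix {κ : P →* ℂˣ} (h1 : κ ≠ 1) {n : NN P} (hn : κ.comp (cjP n) = κ) :
    (n : G) ∈ CC P := by
  by_contra hc
  have hinj : Function.Injective fun x : P => x⁻¹ * cjP n x := fun x y e => by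
    by_contra hxy
    have h2 : cjP n (x * y⁻¹) = x * y⁻¹ := by
      have e' : x⁻¹ * cjP n x = y⁻¹ * cjP n y := e
      rw [map_mul, map_inv, mul_inv_eq_iff_eq_mul, mul_assoc, ← e', mul_inv_cancel_left]
    apply hc
    rw [CC, ← h.star _ (x * y⁻¹).2 (fun e => hxy (mul_inv_eq_one.1 (Subtype.ext e))),
      mem_centralizer_singleton_iff]
    have := congrArg Subtype.val h2
    rw [coe_cjP] at this
    calc (n : G) * ((x * y⁻¹ : P) : G) = n * ((n : G)⁻¹ * ((x * y⁻¹ : P) : G) * n) := by rw [this]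
      _ = _ := by group
  refine h1 (MonoidHom.ext fun x => ?_)
  obtain ⟨y, rfl⟩ := Finite.injective_iff_surjective.1 hinj x
  have := DFunLike.congr_fun hn y
  simp only [MonoidHom.comp_apply] at this
  simp [this]

end Star

/-! ### Characters of the centraliser -/

/-- Conjugate of an irreducible character of the centraliser. -/
def act (n : NN P) (φ : IrrCharacter (CC P)) : IrrCharacter (CC P) :=
  ⟨fun c => (φ : CC P → ℂ) (cj n c), φ.2.comp_mulEquiv (cj n)⟩

theorem act_apply (n : NN P) (φ : IrrCharacter (CC P)) (c : CC P) :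
    (act n φ : CC P → ℂ) c = (φ : CC P → ℂ) (cj n c) := rfl

theorem act_mul (n m : NN P) (φ : IrrCharacter (CC P)) : act (n * m) φ = act n (act m φ) :=
  Subtype.ext (funext fun c => congrArg (φ : CC P → ℂ) (Subtype.ext (by simp [coe_cj, mul_assoc])))

theorem act_of_mem {n : NN P} (hn : (n : G) ∈ CC P) (φ : IrrCharacter (CC P)) : act n φ = φ :=
  Subtype.ext (funext fun c => by
    have := φ.2.isClassFunction c (⟨n, hn⟩ : CC P)⁻¹
    rw [inv_inv] at this
    exact this)

theorem act_one (φ : IrrCharacter (CC P)) : act 1 φ = φ := act_of_mem (one_mem _) φ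

theorem act_injective (n : NN P) : Function.Injective (act n) := fun φ φ' e => by
  rw [← act_one φ, ← act_one φ', ← inv_mul_cancel n, act_mul, act_mul, e]

theorem act_irrOne (n : NN P) : act n (irrOne (CC P)) = irrOne (CC P) := rfl

/-- Conjugacy of characters of the centraliser under the normaliser. -/
def Cj (φ φ' : IrrCharacter (CC P)) : Prop := ∃ n : NN P, act n φ = φ'

theorem Cj.refl (φ : IrrCharacter (CC P)) : Cj φ φ := ⟨1, act_one φ⟩

theorem Cj.symm {φ φ' : IrrCharacter (CC P)} (h : Cj φ φ') : Cj φ' φ := by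
  obtain ⟨n, rfl⟩ := h
  exact ⟨n⁻¹, by rw [← act_mul, inv_mul_cancel, act_one]⟩

theorem Cj.trans {φ φ' φ'' : IrrCharacter (CC P)} (h : Cj φ φ') (h' : Cj φ' φ'') : Cj φ φ'' := by
  obtain ⟨n, rfl⟩ := h
  obtain ⟨m, rfl⟩ := h'
  exact ⟨m * n, act_mul _ _ _⟩

variable [Fintype G] [Fintype (CC P)] [Fintype (NN P)]

open Classical in
/-- Orbit of a linear character of `P`. -/
noncomputable def orb (κ : P →* ℂˣ) : Finset (P →* ℂˣ) :=
  Finset.univ.image fun n : NN P => κ.comp (cjP n)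

theorem card_orb_le (κ : P →* ℂˣ) : (orb κ).card ≤ tt P := by
  unfold orb
  refine @card_image_le _ _ _ _ (_) ((CC P).subgroupOf (NN P)) (fun n : NN P => κ.comp (cjP n))
    fun n c hc => MonoidHom.ext fun x => congrArg κ (Subtype.ext ?_)
  have := mem_subgroupOf.1 hc _ (conj_mem n x.2)
  simp only [coe_cjP, Subgroup.coe_mul, mul_inv_rev]
  calc (c : G)⁻¹ * (n : G)⁻¹ * x * (n * c) = (c : G)⁻¹ * ((n : G)⁻¹ * x * n * c) := by group
    _ = _ := by rw [this]; group

/-- Multiplicity in the restriction to the centraliser. -/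
noncomputable def mu (η : IrrCharacter G) (φ : IrrCharacter (CC P)) : ℕ :=
  ((η.2.isCharacter.restrict (CC P)).exists_nat_classInner φ.2.isCharacter).choose

theorem coe_mu (η : IrrCharacter G) (φ : IrrCharacter (CC P)) :
    (mu η φ : ℂ) = classInner (fun c : CC P => (η : G → ℂ) c) φ :=
  ((η.2.isCharacter.restrict (CC P)).exists_nat_classInner φ.2.isCharacter).choose_spec.symm

theorem coe_mu' (η : IrrCharacter G) (φ : IrrCharacter (CC P)) :
    (mu η φ : ℂ) = classInner (φ : CC P → ℂ) (fun c : CC P => (η : G → ℂ) c) := by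
  rw [← classInner_conj_symm, ← coe_mu, map_natCast]

theorem apply_cj {θ : G → ℂ} (hθ : IsClassFunction G θ) (n : NN P) (c : CC P) :
    θ (cj n c) = θ c := by
  have := hθ c (n : G)⁻¹
  rwa [inv_inv] at this

theorem mu_act (η : IrrCharacter G) (n : NN P) (φ : IrrCharacter (CC P)) :
    mu η (act n φ) = mu η φ := by
  have := classInner_comp_mulEquiv (cj n) (fun c : CC P => (η : G → ℂ) c) φ
  simp only [apply_cj η.2.isClassFunction] at this
  exact_mod_cast (coe_mu η (act n φ)).trans (this.trans (coe_mu η φ).symm)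

theorem Cj.mu_eq {φ φ' : IrrCharacter (CC P)} (h : Cj φ φ') (η : IrrCharacter G) :
    mu η φ' = mu η φ := by
  obtain ⟨n, rfl⟩ := h
  exact mu_act η n φ

theorem apply_eq_sum_mu (η : IrrCharacter G) (c : CC P) :
    (η : G → ℂ) c = ∑ φ : IrrCharacter (CC P), mu η φ * (φ : CC P → ℂ) c := by
  simp only [coe_mu]
  exact (η.2.isClassFunction.restrict (CC P)).apply_eq_sum_irr c

theorem mu_irrOne {φ : IrrCharacter (CC P)} (h : φ ≠ irrOne (CC P)) : mu (irrOne G) φ = 0 := by
  classical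
  have := (coe_mu (irrOne G) φ).trans (classInner_irr (irrOne (CC P)) φ)
  rw [if_neg h.symm] at this
  exact_mod_cast this

theorem mu_irrOne_self : mu (irrOne G) (irrOne (CC P)) = 1 := by
  exact_mod_cast (coe_mu (irrOne G) (irrOne (CC P))).trans (irrOne (CC P)).2.classInner_self

/-- The sum of the conjugates. -/
noncomputable def RR (θ : CC P → ℂ) : CC P → ℂ :=
  (Nat.card (CC P) : ℂ)⁻¹ • ∑ n : NN P, fun c => θ (cj n c)

theorem RR_apply (θ : CC P → ℂ) (c : CC P) :
    RR θ c = (Nat.card (CC P) : ℂ)⁻¹ * ∑ n : NN P, θ (cj n c) := by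
  simp [RR]

theorem RR_sub (θ θ' : CC P → ℂ) : RR (θ - θ') = RR θ - RR θ' := by
  ext c; simp [RR_apply, mul_sub]

theorem RR_of_inv {θ : CC P → ℂ} (h : ∀ n c, θ (cj n c) = θ c) : RR θ = (tt P : ℂ) • θ := by
  ext c
  simp only [RR_apply, h, Finset.sum_const, Finset.card_univ, ← Nat.card_eq_fintype_card, card_NN,
    nsmul_eq_mul, Nat.cast_mul, Pi.smul_apply, smul_eq_mul, ← mul_assoc]
  rw [inv_mul_cancel₀ (natCard_ne_zero _), one_mul]

open Classical in
theorem classInner_RR (φ φ' : IrrCharacter (CC P)) : classInner (RR (φ : CC P → ℂ)) φ' =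
    (Nat.card (CC P) : ℂ)⁻¹ * ∑ n : NN P, if act n φ = φ' then 1 else 0 := by
  rw [RR, classInner_smul_left, classInner_sum_left]
  simp only [← classInner_irr]
  rfl

theorem classInner_RR_of_not {φ φ' : IrrCharacter (CC P)} (h : ¬ Cj φ φ') :
    classInner (RR (φ : CC P → ℂ)) φ' = 0 := by
  rw [classInner_RR, Finset.sum_eq_zero fun n _ => if_neg fun e => h ⟨n, e⟩, mul_zero]

theorem sum_classInner_RR (φ : IrrCharacter (CC P)) :
    ∑ φ' : IrrCharacter (CC P), classInner (RR (φ : CC P → ℂ)) φ' = tt P := by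
  simp only [classInner_RR, ← Finset.mul_sum]
  rw [Finset.sum_comm]
  simp only [Finset.sum_ite_eq, Finset.mem_univ, if_true, Finset.sum_const, Finset.card_univ,
    ← Nat.card_eq_fintype_card, card_NN, nsmul_eq_mul, Nat.cast_mul, mul_one, ← mul_assoc]
  rw [inv_mul_cancel₀ (natCard_ne_zero _), one_mul]

namespace Star

variable [hp : Fact p.Prime] (h : Star p P)
include h

/-- `f` lies over the linear character `κ` of `P`. -/
def Eig (κ : P →* ℂˣ) (f : CC P → ℂ) : Prop := ∀ (x : P) (c : CC P), f (h.io x * c) = κ x * f c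

theorem exists_eig (φ : IrrCharacter (CC P)) : ∃ κ, h.Eig κ φ := by
  obtain ⟨lam, h1, -⟩ := φ.2.exists_center_hom
  exact ⟨lam.comp (h.io.codRestrict _ h.io_mem_center), fun x c => h1 ⟨_, h.io_mem_center x⟩ c⟩

/-- The linear character of `P` under `φ`. -/
noncomputable def cc (φ : IrrCharacter (CC P)) : P →* ℂˣ := (h.exists_eig φ).choose

theorem eig_cc (φ : IrrCharacter (CC P)) : h.Eig (h.cc φ) φ := (h.exists_eig φ).choose_spec

theorem cc_eq {φ : IrrCharacter (CC P)} {κ : P →* ℂˣ} (e : h.Eig κ φ) : h.cc φ = κ :=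
  MonoidHom.ext fun x => Units.ext (mul_right_cancel₀ φ.2.apply_one_ne_zero
    ((h.eig_cc φ x 1).symm.trans (e x 1)))

theorem cc_act (n : NN P) (φ : IrrCharacter (CC P)) : h.cc (act n φ) = (h.cc φ).comp (cjP n) :=
  h.cc_eq fun x c => by rw [act_apply, map_mul, h.cj_io, h.eig_cc]; rfl

theorem cc_irrOne : h.cc (irrOne (CC P)) = 1 := h.cc_eq fun x c => by simp

theorem cc_mem_orb {φ φ' : IrrCharacter (CC P)} (e : Cj φ φ') : h.cc φ' ∈ orb (h.cc φ) := by
  classical
  obtain ⟨n, rfl⟩ := e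
  unfold orb
  simp only [Finset.mem_image]
  exact ⟨n, Finset.mem_univ _, (h.cc_act n φ).symm⟩

theorem Eig.classInner_eq_zero {κ κ' : P →* ℂˣ} {f f' : CC P → ℂ} (e : h.Eig κ f)
    (e' : h.Eig κ' f') (hne : κ ≠ κ') : classInner f f' = 0 := by
  obtain ⟨x, hx⟩ := DFunLike.ne_iff.1 hne
  have h1 := classInner_comp_equiv (Equiv.mulLeft (h.io x)) f f'
  have h2 : (fun c => f (Equiv.mulLeft (h.io x) c)) = (κ x : ℂ) • f := funext (e x)
  have h3 : (fun c => f' (Equiv.mulLeft (h.io x) c)) = (κ' x : ℂ) • f' := funext (e' x)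
  rw [h2, h3, classInner_smul_left, classInner_smul_right, conj_monoidHom_units, ← mul_assoc,
    ← sub_eq_zero, ← sub_one_mul, mul_eq_zero, sub_eq_zero,
    mul_inv_eq_one₀ (Units.ne_zero _)] at h1
  exact h1.resolve_left fun e => hx (Units.ext e)

/-- The multiple of `φ` lying over `κ`. -/
noncomputable def tw (κ : P →* ℂˣ) (φ : IrrCharacter (CC P)) : IrrCharacter (CC P) :=
  ⟨_, φ.2.monoidHom_mul ((κ * (h.cc φ)⁻¹).comp h.rt)⟩

theorem tw_apply (κ : P →* ℂˣ) (φ : IrrCharacter (CC P)) (c : CC P) :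
    (h.tw κ φ : CC P → ℂ) c = (κ * (h.cc φ)⁻¹) (h.rt c) * (φ : CC P → ℂ) c := rfl

theorem cc_tw (κ : P →* ℂˣ) (φ : IrrCharacter (CC P)) : h.cc (h.tw κ φ) = κ :=
  h.cc_eq fun x c => by
    rw [tw_apply, tw_apply, h.eig_cc, map_mul, h.rt_io, map_mul]
    simp only [MonoidHom.mul_apply, MonoidHom.inv_apply, Units.val_mul, Units.val_inv_eq_inv_val]
    field_simp

theorem tw_regular (κ : P →* ℂˣ) (φ : IrrCharacter (CC P)) {c : CC P} (hc : ¬ p ∣ orderOf c) :
    (φ : CC P → ℂ) c = (h.tw κ φ : CC P → ℂ) c := by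
  rw [tw_apply, h.rt_of_regular hc, map_one, Units.val_one, one_mul]

open Classical in
theorem classInner_RR_of_ne {φ : IrrCharacter (CC P)} (h1 : h.cc φ ≠ 1)
    (φ' : IrrCharacter (CC P)) :
    classInner (RR (φ : CC P → ℂ)) φ' = if Cj φ φ' then 1 else 0 := by
  split_ifs with e
  · obtain ⟨m, rfl⟩ := e
    rw [classInner_RR, ← Equiv.sum_comp (Equiv.mulLeft m)]
    have : ∀ n : NN P, act (Equiv.mulLeft m n) φ = act m φ ↔ n ∈ (CC P).subgroupOf (NN P) :=
      fun n => by
        rw [Equiv.coe_mulLeft, act_mul, (act_injective m).eq_iff, mem_subgroupOf]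
        exact ⟨fun e => h.mem_CC_of_fix h1 (by rw [← h.cc_act, e]), fun e => act_of_mem e φ⟩
    simp only [this, Finset.sum_boole]
    rw [← Fintype.card_subtype, ← Nat.card_eq_fintype_card,
      Nat.card_congr (subgroupOfEquivOfLe CC_le_NN).toEquiv, inv_mul_cancel₀ (natCard_ne_zero _)]
  · exact classInner_RR_of_not e

open Classical in
theorem card_orbit {φ : IrrCharacter (CC P)} (h1 : h.cc φ ≠ 1) :
    (Finset.univ.filter (Cj φ)).card = tt P := by
  have := sum_classInner_RR φ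
  simp only [h.classInner_RR_of_ne h1, Finset.sum_boole] at this
  exact_mod_cast this

theorem indFun_coe {θ : CC P → ℂ} (hθ : ∀ c, ¬ p ∣ orderOf c → θ c = 0) (c : CC P) :
    indFun (CC P) θ c = RR θ c := by
  classical
  rw [indFun_apply, RR_apply]
  congr 1
  rw [← Finset.sum_filter_add_sum_filter_not Finset.univ (· ∈ NN P),
    Finset.sum_eq_zero (s := Finset.univ.filter (· ∉ NN P)), add_zero,
    Finset.sum_subtype (p := (· ∈ NN P)) _ (by simp)]
  · exact Finset.sum_congr rfl fun n _ => TI.ext_of_mem _ _ (conj_mem_CC n c.2)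
  · intro g hg
    by_cases hm : g⁻¹ * c * g ∈ CC P
    · rw [TI.ext_of_mem _ _ hm]
      refine hθ _ fun hs => (Finset.mem_filter.1 hg).2 (h.mem_NN_of_singular c.2 hm ?_)
      rw [← orderOf_coe] at hs
      have := (MulAut.conj g⁻¹).orderOf_eq (c : G)
      simp only [MulAut.conj_apply, inv_inv] at this
      rwa [← this]
    · exact TI.ext_of_not_mem _ _ hm

theorem classInner_ind_ind {θ θ' : CC P → ℂ} (hθ : ∀ c, ¬ p ∣ orderOf c → θ c = 0) :
    classInner (indFun (CC P) θ) (indFun (CC P) θ') = classInner (RR θ) θ' := by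
  rw [classInner_indFun_right _ _ (indFun_isClassFunction _ _)]
  simp only [h.indFun_coe hθ]

omit h in
theorem classInner_ind_sub (φ φ' : IrrCharacter (CC P)) (η : IrrCharacter G) :
    classInner (indFun (CC P) ((φ : CC P → ℂ) - φ')) η = mu η φ - mu η φ' := by
  rw [classInner_indFun_left _ _ η.2.isClassFunction, classInner_sub_left, coe_mu', coe_mu']

open Classical in
theorem exists_partner {φ φ' : IrrCharacter (CC P)} (h1 : h.cc φ ≠ 1) (h1' : h.cc φ' ≠ 1)
    (hr : ∀ c, ¬ p ∣ orderOf c → (φ : CC P → ℂ) c = (φ' : CC P → ℂ) c) {η : IrrCharacter G}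
    (hm : mu η φ' < mu η φ) :
    ∃ η' : IrrCharacter G, η' ≠ η ∧ indFun (CC P) ((φ : CC P → ℂ) - φ') = η - η' ∧
      mu η φ = mu η φ' + 1 ∧
      ∀ ξ, mu η' ξ + (if Cj φ ξ then 1 else 0) = mu η ξ + if Cj φ' ξ then 1 else 0 := by
  have hc : ¬ Cj φ φ' := fun e => hm.ne (e.mu_eq η)
  have h0 : ∀ c, ¬ p ∣ orderOf c → ((φ : CC P → ℂ) - φ') c = 0 := fun c hc => by
    rw [Pi.sub_apply, hr c hc, sub_self]
  obtain ⟨a, b, ha, hb, hab, e⟩ := Exc.exists_sub_of_norm_two
    (θ := indFun (CC P) ((φ : CC P → ℂ) - φ'))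
    (isGeneralizedCharacter_indFun _ (φ.2.isGeneralizedCharacter.sub φ'.2.isGeneralizedCharacter))
    (by
      rw [h.classInner_ind_ind h0, RR_sub, classInner_sub_left, classInner_sub_right,
        classInner_sub_right, h.classInner_RR_of_ne h1, h.classInner_RR_of_ne h1,
        h.classInner_RR_of_ne h1', h.classInner_RR_of_ne h1', if_pos (Cj.refl _),
        if_pos (Cj.refl _), if_neg hc, if_neg fun e => hc e.symm]
      norm_num)
    (by rw [indFun_one, h0 1 (by simpa using hp.out.one_lt.ne'), mul_zero])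
  have h2 := classInner_ind_sub φ φ' η
  rw [e, classInner_sub_left, show a = (⟨a, ha⟩ : IrrCharacter G) from rfl,
    show b = (⟨b, hb⟩ : IrrCharacter G) from rfl, classInner_irr, classInner_irr] at h2
  have h3 : ((if (⟨a, ha⟩ : IrrCharacter G) = η then 1 else 0 : ℤ) -
      if (⟨b, hb⟩ : IrrCharacter G) = η then 1 else 0) = mu η φ - mu η φ' := by
    exact_mod_cast h2
  have h4 : (⟨a, ha⟩ : IrrCharacter G) = η := by
    by_contra h4
    rw [if_neg h4] at h3
    split_ifs at h3 <;> omega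
  subst h4
  have h5 : (⟨b, hb⟩ : IrrCharacter G) ≠ ⟨a, ha⟩ := fun e => hab (congrArg Subtype.val e).symm
  rw [if_pos rfl, if_neg h5] at h3
  refine ⟨⟨b, hb⟩, h5, e, by omega, fun ξ => ?_⟩
  have h6 : classInner (fun c : CC P => indFun (CC P) ((φ : CC P → ℂ) - φ') c) ξ =
      mu ⟨a, ha⟩ ξ - mu ⟨b, hb⟩ ξ := by
    rw [e, coe_mu, coe_mu, ← classInner_sub_left]; rfl
  simp only [h.indFun_coe h0] at h6
  rw [RR_sub, classInner_sub_left, h.classInner_RR_of_ne h1, h.classInner_RR_of_ne h1'] at h6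
  have h7 : ((if Cj φ ξ then 1 else 0 : ℤ) - if Cj φ' ξ then 1 else 0) =
      mu ⟨a, ha⟩ ξ - mu ⟨b, hb⟩ ξ := by exact_mod_cast h6
  split_ifs at h7 ⊢ <;> omega

theorem card_hom [Fintype (P →* ℂˣ)] : Fintype.card (P →* ℂˣ) = Nat.card P := by
  rw [← Nat.card_eq_fintype_card, card_monoidHom_units_of_comm' h.comm]

theorem exists_notMem (S : Finset (P →* ℂˣ)) (hS : S.card + 1 < Nat.card P) :
    ∃ κ, κ ≠ 1 ∧ κ ∉ S := by
  classical
  have := Fintype.ofFinite (P →* ℂˣ)
  obtain ⟨κ, -, hκ⟩ := Finset.exists_mem_notMem_of_card_lt_card (s := insert 1 S)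
    (t := Finset.univ) (by
      rw [Finset.card_univ, h.card_hom]
      exact (Finset.card_insert_le _ _).trans_lt hS)
  rw [Finset.mem_insert, not_or] at hκ
  exact ⟨κ, hκ⟩

theorem single_orbit {η : IrrCharacter G} (S : Finset (P →* ℂˣ))
    (hS : ∀ φ, mu η φ ≠ 0 → h.cc φ ≠ 1 → h.cc φ ∈ S) (hc : S.card + tt P + 1 < Nat.card P)
    {φ φ' : IrrCharacter (CC P)} (h1 : h.cc φ ≠ 1) (hm : mu η φ ≠ 0) (h1' : h.cc φ' ≠ 1)
    (hm' : mu η φ' ≠ 0) : Cj φ φ' := by
  classical
  by_contra hn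
  obtain ⟨κ, hκ1, hκ⟩ := h.exists_notMem S (by omega)
  obtain ⟨κ', hκ1', hκ'⟩ := h.exists_notMem (S ∪ orb κ)
    (by have := Finset.card_union_le S (orb κ); have := card_orb_le κ; omega)
  rw [Finset.mem_union, not_or] at hκ'
  have h2 : mu η (h.tw κ φ) = 0 := by
    by_contra h2
    exact hκ (h.cc_tw κ φ ▸ hS _ h2 (by rwa [h.cc_tw]))
  have h2' : mu η (h.tw κ' φ') = 0 := by
    by_contra h2
    exact hκ'.1 (h.cc_tw κ' φ' ▸ hS _ h2 (by rwa [h.cc_tw]))
  obtain ⟨a, ha, e, -⟩ := h.exists_partner h1 (φ' := h.tw κ φ) (by rwa [h.cc_tw])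
    (fun c => h.tw_regular κ φ) (η := η) (by omega)
  obtain ⟨a', ha', e', -⟩ := h.exists_partner h1' (φ' := h.tw κ' φ') (by rwa [h.cc_tw])
    (fun c => h.tw_regular κ' φ') (η := η) (by omega)
  have h3 := h.classInner_ind_ind (θ := (φ : CC P → ℂ) - h.tw κ φ)
    (θ' := (φ' : CC P → ℂ) - h.tw κ' φ') fun c hc => by
      rw [Pi.sub_apply, h.tw_regular κ φ hc, sub_self]
  rw [e, e', RR_sub] at h3
  simp only [classInner_sub_left, classInner_sub_right, classInner_irr] at h3
  rw [classInner_RR_of_not hn, classInner_RR_of_not (φ := φ) fun e => hm (by rw [← e.mu_eq, h2']),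
    classInner_RR_of_not (φ' := φ') fun e => hm' (by rw [e.mu_eq, h2]),
    classInner_RR_of_not fun e => hκ'.2 (by simpa only [h.cc_tw] using h.cc_mem_orb e),
    if_neg ha, if_neg ha'.symm] at h3
  split_ifs at h3 <;> norm_num at h3

theorem false_of_single_orbit {η : IrrCharacter G} {φ : IrrCharacter (CC P)} (h1 : h.cc φ ≠ 1)
    (hm : mu η φ ≠ 0) (hs : ∀ φ', h.cc φ' ≠ 1 → mu η φ' ≠ 0 → Cj φ φ')
    (h0 : mu η (irrOne (CC P)) ≠ 0) (ht : tt P ^ 2 + 1 < Nat.card P) : False := by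
  classical
  have := Fintype.ofFinite (P →* ℂˣ)
  set K := Finset.univ.filter fun κ : P →* ℂˣ => κ ≠ 1 ∧ κ ∉ orb (h.cc φ) with hK
  have hKc : Nat.card P ≤ K.card + tt P + 1 := by
    rw [← h.card_hom, ← Finset.card_univ]
    calc _ ≤ (insert 1 (K ∪ orb (h.cc φ))).card := Finset.card_le_card fun κ _ => by
          simp only [hK, Finset.mem_insert, Finset.mem_union, Finset.mem_filter, Finset.mem_univ,
            true_and]
          tauto
      _ ≤ _ := by
          have := Finset.card_insert_le 1 (K ∪ orb (h.cc φ))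
          have := Finset.card_union_le K (orb (h.cc φ))
          have := card_orb_le (h.cc φ)
          omega
  have hz : ∀ ξ, h.cc ξ ∈ K → mu η ξ = 0 ∧ ¬ Cj φ ξ := fun ξ hξ => by
    obtain ⟨h2, h3⟩ := (Finset.mem_filter.1 hξ).2
    have h4 : ¬ Cj φ ξ := fun e => h3 (h.cc_mem_orb e)
    exact ⟨by_contra fun h5 => h4 (hs ξ h2 h5), h4⟩
  have hex : ∀ κ ∈ K, ∃ η' : IrrCharacter G, mu η φ = 1 ∧
      ∀ ξ, mu η' ξ + (if Cj φ ξ then 1 else 0) = mu η ξ + if Cj (h.tw κ φ) ξ then 1 else 0 :=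
    fun κ hκ => by
      have h2 := (hz (h.tw κ φ) (by rwa [h.cc_tw])).1
      obtain ⟨η', -, -, h3, h4⟩ := h.exists_partner h1 (φ' := h.tw κ φ)
        (by rw [h.cc_tw]; exact (Finset.mem_filter.1 hκ).2.1) (fun c => h.tw_regular κ φ)
        (η := η) (by omega)
      exact ⟨η', by omega, h4⟩
  choose! f hf1 hf using hex
  have hself : ∀ κ ∈ K, mu (f κ) (h.tw κ φ) ≠ 0 := fun κ hκ => by
    have h2 := hf κ hκ (h.tw κ φ)
    rw [if_neg (hz _ (by rwa [h.cc_tw])).2, if_pos (Cj.refl _)] at h2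
    omega
  have hfib : K.card ≤ tt P * (K.image f).card := by
    refine Finset.card_le_mul_card_image _ _ fun b hb => ?_
    obtain ⟨κ, hκ, rfl⟩ := Finset.mem_image.1 hb
    refine le_trans (Finset.card_le_card fun κ' hκ' => ?_) (card_orb_le κ)
    obtain ⟨h2, h3⟩ := Finset.mem_filter.1 hκ'
    have h4 := hf κ hκ (h.tw κ' φ)
    have h5 := hz (h.tw κ' φ) (by rwa [h.cc_tw])
    have h6 := hself κ' h2
    rw [if_neg h5.2, h5.1, ← h3] at h4
    split_ifs at h4 with h7
    · simpa only [h.cc_tw] using h.cc_mem_orb h7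
    · omega
  have htpos : 0 < tt P := Nat.pos_of_ne_zero index_ne_zero_of_finite
  have himg : tt P ≤ (K.image f).card := by
    by_contra hlt
    have := Nat.mul_le_mul_left (tt P) (show (K.image f).card + 1 ≤ tt P by omega)
    nlinarith
  set l := h.tw (h.cc φ) (irrOne (CC P)) with hl
  have hlc : h.cc l = h.cc φ := h.cc_tw _ _
  have hno : ∀ ξ, h.cc ξ ≠ 1 → ¬ Cj ξ (irrOne (CC P)) := fun ξ hξ e => by
    obtain ⟨n, rfl⟩ := e.symm
    exact hξ h.cc_irrOne
  have hr : ∀ c, ¬ p ∣ orderOf c → ((l : CC P → ℂ) - irrOne (CC P)) c = 0 := fun c hc => by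
    rw [Pi.sub_apply, h.tw_regular (h.cc φ) (irrOne (CC P)) hc, sub_self]
  set δ := indFun (CC P) ((l : CC P → ℂ) - irrOne (CC P)) with hδ
  set m : IrrCharacter G → ℤ := fun χ => mu χ l - mu χ (irrOne (CC P)) with hmdef
  have hδm : ∀ χ : IrrCharacter G, classInner δ χ = m χ := fun χ => by
    rw [hδ, classInner_ind_sub]; simp [hmdef]
  have hnorm : ∑ χ, m χ ^ 2 = tt P + 1 := by
    have h2 := (indFun_isClassFunction (CC P) ((l : CC P → ℂ) - irrOne (CC P))).classInner_eq_sum δ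
    rw [h.classInner_ind_ind hr, RR_sub, RR_of_inv (θ := (irrOne (CC P) : CC P → ℂ)) fun _ _ => rfl]
      at h2
    simp only [← hδ, hδm, classInner_sub_left, classInner_sub_right, classInner_smul_left,
      classInner_irr, h.classInner_RR_of_ne (hlc ▸ h1), if_pos (Cj.refl _),
      if_neg (hno l (hlc ▸ h1)), map_intCast] at h2
    rw [if_neg fun e : irrOne (CC P) = l => hno l (hlc ▸ h1) (e ▸ Cj.refl _)] at h2
    have h3 : ((∑ χ, m χ ^ 2 : ℤ) : ℂ) = ((tt P + 1 : ℤ) : ℂ) := by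
      push_cast
      simp only [sq]
      rw [← h2]; simp [add_comm]
    exact_mod_cast h3
  have hdeg : ∑ χ : IrrCharacter G, m χ * charDegree (χ : G → ℂ) = 0 := by
    have h2 := (indFun_isClassFunction (CC P) ((l : CC P → ℂ) - irrOne (CC P))).apply_eq_sum_irr 1
    rw [indFun_one, hr 1 (by simpa using hp.out.one_lt.ne'), mul_zero] at h2
    simp only [← hδ, hδm, ← IsIrrCharacter.coe_charDegree (Subtype.property _)] at h2
    exact_mod_cast h2.symm
  have hneg : ∀ χ ∈ insert (irrOne G) (K.image f), m χ < 0 := fun χ hχ => by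
    rcases Finset.mem_insert.1 hχ with rfl | hχ
    · simp [hmdef, mu_irrOne_self, mu_irrOne (φ := l) fun e => hno l (hlc ▸ h1) (e ▸ Cj.refl _)]
    · obtain ⟨κ, hκ, rfl⟩ := Finset.mem_image.1 hχ
      have hκ' := (Finset.mem_filter.1 hκ).2
      have h2 := hf κ hκ l
      have h3 := hf κ hκ (irrOne (CC P))
      rw [if_neg (hno _ h1), if_neg (hno _ (by rw [h.cc_tw]; exact hκ'.1))] at h3
      rw [if_neg (c := Cj (h.tw κ φ) l) fun e => hκ'.2 (by
        simpa only [h.cc_tw, hlc] using h.cc_mem_orb e.symm)] at h2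
      have h4 := hf1 κ hκ
      simp only [hmdef]
      split_ifs at h2 with h5
      · have := h5.mu_eq η
        omega
      · have : mu η l = 0 := by_contra fun h6 => h5 (hs l (hlc ▸ h1) h6)
        omega
  have hone : irrOne G ∉ K.image f := fun hχ => by
    obtain ⟨κ, hκ, e⟩ := Finset.mem_image.1 hχ
    refine hself κ hκ (e ▸ mu_irrOne fun e' => ?_)
    exact (Finset.mem_filter.1 hκ).2.1 (by rw [← h.cc_tw κ φ, e', h.cc_irrOne])
  obtain ⟨χ, hχ⟩ : ∃ χ, 0 < m χ := by
    by_contra hc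
    push Not at hc
    refine (Finset.sum_neg' (fun χ _ => mul_nonpos_of_nonpos_of_nonneg (hc χ) (by positivity))
      ⟨irrOne G, Finset.mem_univ _, ?_⟩).ne hdeg
    exact mul_neg_of_neg_of_pos (hneg _ (Finset.mem_insert_self _ _))
      (by exact_mod_cast (irrOne G).2.charDegree_pos)
  have hχ' : χ ∉ insert (irrOne G) (K.image f) := fun e => (hneg χ e).not_gt hχ
  have h2 : ∑ _ψ ∈ insert χ (insert (irrOne G) (K.image f)), (1 : ℤ) ≤ tt P + 1 := by
    rw [← hnorm]
    refine (Finset.sum_le_sum fun ψ hψ => ?_).trans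
      (Finset.sum_le_sum_of_subset_of_nonneg (Finset.subset_univ _) fun _ _ _ => sq_nonneg _)
    have : m ψ ≠ 0 := by
      rcases Finset.mem_insert.1 hψ with rfl | hψ
      exacts [hχ.ne', (hneg ψ hψ).ne]
    have := sq_pos_of_ne_zero this
    omega
  rw [Finset.sum_const, Finset.card_insert_of_notMem hχ', Finset.card_insert_of_notMem hone] at h2
  simp only [nsmul_eq_mul, mul_one] at h2
  omega

omit h in
theorem classInner_res_self (ψ : IrrCharacter G) :
    classInner (fun c : CC P => (ψ : G → ℂ) c) (fun c : CC P => (ψ : G → ℂ) c) =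
      (∑ φ : IrrCharacter (CC P), mu ψ φ ^ 2 : ℕ) := by
  rw [(ψ.2.isClassFunction.restrict (CC P)).classInner_eq_sum]
  simp only [← coe_mu, map_natCast]
  push_cast
  simp only [sq]

theorem sum_mu_sq_le (ψ : IrrCharacter G) (hd : charDegree (ψ : G → ℂ) ^ 2 < Nat.card P) :
    ∑ φ : IrrCharacter (CC P), mu ψ φ ^ 2 ≤ tt P := by
  classical
  set θ : CC P → ℂ := fun c => if p ∣ orderOf c then (ψ : G → ℂ) c else 0 with hθ
  have h0 : ∀ c, ¬ p ∣ orderOf c → θ c = 0 := fun c hc => if_neg hc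
  have h1 := h.classInner_ind_ind (θ' := θ) h0
  rw [RR_of_inv fun n c => by
    simp only [hθ, MulEquiv.orderOf_eq, apply_cj ψ.2.isClassFunction], classInner_smul_left] at h1
  have h2 : classInner (indFun (CC P) θ) ψ = classInner θ θ := by
    rw [classInner_indFun_left _ _ ψ.2.isClassFunction, classInner_def, classInner_def]
    congr 1
    refine Finset.sum_congr rfl fun c _ => ?_
    simp only [hθ]
    split_ifs <;> simp
  have h3 := norm_classInner_sq_le (indFun (CC P) θ) ψ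
  rw [h1, h2, ψ.2.classInner_self, norm_classInner_self, Complex.one_re, mul_one,
    ← Complex.ofReal_natCast, Complex.re_ofReal_mul] at h3
  have h4 : (classInner θ θ).re ≤ tt P := by
    by_contra h4
    have := re_classInner_self_nonneg θ
    have : (0 : ℝ) ≤ tt P := by positivity
    nlinarith
  have hC : (0 : ℝ) < Nat.card (CC P) := by exact_mod_cast Nat.card_pos
  have h5 : ∑ c : CC P, ‖(ψ : G → ℂ) c‖ ^ 2 ≤ ∑ c, ‖θ c‖ ^ 2 +
      Nat.card h.rt.ker * (charDegree (ψ : G → ℂ) : ℝ) ^ 2 := by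
    rw [Nat.card_eq_fintype_card, Fintype.card_subtype, Finset.card_filter, Nat.cast_sum,
      Finset.sum_mul, ← Finset.sum_add_distrib]
    refine Finset.sum_le_sum fun c _ => ?_
    simp only [hθ]
    split_ifs with h6 h7 h7
    · simp
    · simp
    · simpa using pow_le_pow_left₀ (norm_nonneg _) (ψ.2.isCharacter.norm_le c) 2
    · exact absurd (h.rt_of_regular h6) h7
  have h6 := congrArg Complex.re (classInner_res_self (P := P) ψ)
  rw [re_classInner_self, Complex.natCast_re, inv_mul_eq_iff_eq_mul₀ hC.ne'] at h6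
  rw [re_classInner_self, inv_mul_le_iff₀ hC] at h4
  have h7 : (Nat.card h.rt.ker : ℝ) * (charDegree (ψ : G → ℂ) : ℝ) ^ 2 < Nat.card (CC P) := by
    rw [← h.card_ker_rt]
    exact_mod_cast Nat.mul_lt_mul_of_pos_left hd Nat.card_pos
  have h8 : ((∑ φ : IrrCharacter (CC P), mu ψ φ ^ 2 : ℕ) : ℝ) < tt P + 1 :=
    lt_of_mul_lt_mul_left (by linarith) hC.le
  exact Nat.lt_succ_iff.1 (by exact_mod_cast h8)

theorem apply_io (η : IrrCharacter G) {κ : P →* ℂˣ} (hκ : ∀ φ, mu η φ ≠ 0 → h.cc φ = κ) (x : P) :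
    (η : G → ℂ) x = κ x * (η : G → ℂ) 1 := by
  have h1 := apply_eq_sum_mu η (h.io x * 1)
  have h2 := apply_eq_sum_mu (P := P) η 1
  simp only [mul_one, coe_io, OneMemClass.coe_one] at h1 h2
  rw [h1, h2, Finset.mul_sum]
  refine Finset.sum_congr rfl fun φ _ => ?_
  have := h.eig_cc φ x 1
  rw [mul_one] at this
  by_cases h3 : mu η φ = 0
  · simp [h3]
  · rw [this, hκ φ h3]; ring

theorem exists_cc_ne (hG : normalClosure (P : Set G) = ⊤) {η : IrrCharacter G}
    (h1 : η ≠ irrOne G) : ∃ φ, mu η φ ≠ 0 ∧ h.cc φ ≠ 1 := by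
  by_contra hc
  push Not at hc
  have := η.2.isCharacter.charKer_normal
  refine h1 (Subtype.ext (η.2.eq_one_of_charKer_eq_top (top_le_iff.1 ?_)))
  rw [← hG]
  exact normalClosure_le_normal fun x hx => η.2.mem_charKer.2 (by
    simpa using h.apply_io η hc ⟨x, hx⟩)

theorem main (hG : normalClosure (P : Set G) = ⊤) {ψ : IrrCharacter G} (h1 : ψ ≠ irrOne G)
    (hd : charDegree (ψ : G → ℂ) ^ 2 + 1 < Nat.card P) :
    tt P = 1 ∧ charDegree (ψ : G → ℂ) = 1 := by
  classical
  obtain ⟨φ, hm, hφ⟩ := h.exists_cc_ne hG h1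
  have hle := h.sum_mu_sq_le ψ (by omega)
  have horb : ∀ f : IrrCharacter (CC P) → ℕ, (∀ ξ, Cj φ ξ → 1 ≤ f ξ) →
      tt P ≤ ∑ ξ ∈ Finset.univ.filter (Cj φ), f ξ := fun f hf => by
    rw [← h.card_orbit hφ, Finset.card_eq_sum_ones]
    exact Finset.sum_le_sum fun ξ hξ => hf ξ (Finset.mem_filter.1 hξ).2
  have hge := horb (fun ξ => mu ψ ξ ^ 2) fun ξ e =>
    Nat.one_le_iff_ne_zero.2 (pow_ne_zero _ (by rwa [e.mu_eq]))
  have hcj : ∀ ξ, mu ψ ξ ≠ 0 → h.cc ξ ∈ orb (h.cc φ) := fun ξ hξ => h.cc_mem_orb (by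
    by_contra hc
    have h2 : ∑ ξ ∈ insert ξ (Finset.univ.filter (Cj φ)), mu ψ ξ ^ 2 ≤ tt P :=
      (Finset.sum_le_sum_of_subset (Finset.subset_univ _)).trans hle
    rw [Finset.sum_insert (by simpa using hc)] at h2
    have := pow_pos (Nat.pos_of_ne_zero hξ) 2
    omega)
  have htd : tt P ≤ charDegree (ψ : G → ℂ) := by
    have h2 := apply_eq_sum_mu (P := P) ψ 1
    simp only [OneMemClass.coe_one, ← IsIrrCharacter.coe_charDegree (Subtype.property _)] at h2
    have h3 : charDegree (ψ : G → ℂ) =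
        ∑ ξ : IrrCharacter (CC P), mu ψ ξ * charDegree (ξ : CC P → ℂ) := by exact_mod_cast h2
    rw [h3]
    exact (horb _ fun ξ e => Nat.mul_pos (Nat.pos_of_ne_zero (by rwa [e.mu_eq]))
      ξ.2.charDegree_pos).trans (Finset.sum_le_sum_of_subset (Finset.subset_univ _))
  have ht : tt P ^ 2 + 1 < Nat.card P := lt_of_le_of_lt (by gcongr) hd
  have htpos : 0 < tt P := Nat.pos_of_ne_zero index_ne_zero_of_finite
  rcases (show 1 ≤ tt P from htpos).eq_or_lt with h2 | h2
  · refine ⟨h2.symm, ?_⟩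
    have h3 := h.apply_io ψ fun ξ hξ => Finset.card_le_one.1 ((card_orb_le _).trans h2.ge) _
      (hcj ξ hξ) _ (h.cc_mem_orb (Cj.refl φ))
    have := ψ.2.isCharacter.charCenter_normal
    have h4 : (ψ : G → ℂ) 1 = 1 := ψ.2.apply_one_eq_one_iff_charCenter.2 (top_le_iff.1 (by
      rw [← hG]
      exact normalClosure_le_normal fun x hx => ψ.2.isCharacter.mem_charCenter_iff_norm.2 (by
        rw [h3 ⟨x, hx⟩, norm_mul, norm_monoidHom_units, one_mul])))
    exact_mod_cast ψ.2.coe_charDegree.trans h4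
  exfalso
  have hΘ : IsCharacter G ((ψ : G → ℂ) * fun g => conj ((ψ : G → ℂ) g)) :=
    ψ.2.isCharacter.mul ψ.2.isCharacter.complexConj
  set Θ := (ψ : G → ℂ) * fun g => conj ((ψ : G → ℂ) g) with hΘdef
  choose m hmΘ using fun χ : IrrCharacter G => hΘ.exists_nat_classInner χ.2.isCharacter
  have hres : ∀ ξ : IrrCharacter (CC P), classInner (fun c : CC P => Θ c) ξ =
      (∑ χ, m χ * mu χ ξ : ℕ) := fun ξ => by
    have : (fun c : CC P => Θ c) =
        ∑ χ : IrrCharacter G, (m χ : ℂ) • fun c : CC P => (χ : G → ℂ) c := by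
      ext c
      rw [hΘ.isClassFunction.apply_eq_sum_irr]
      simp [hmΘ]
    rw [this, classInner_sum_left]
    simp only [classInner_smul_left, ← coe_mu]
    push_cast; rfl
  have hm1 : m (irrOne G) = 1 := by
    have := (classInner_eq_mul_conj_one (ψ : G → ℂ) ψ).symm.trans ψ.2.classInner_self
    exact_mod_cast (hmΘ (irrOne G)).symm.trans this
  obtain ⟨η, hη1, hη⟩ : ∃ η, η ≠ irrOne G ∧ m η * mu η (irrOne (CC P)) ≠ 0 := by
    by_contra hc
    push Not at hc
    have h3 := (classInner_res_self (P := P) ψ).symm.trans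
      ((classInner_eq_mul_conj_one _ _).trans (hres (irrOne (CC P))))
    rw [Finset.sum_eq_single (irrOne G) (fun η _ => hc η) (by simp), hm1, mu_irrOne_self,
      Nat.cast_inj] at h3
    have := Finset.sum_le_sum_of_subset (f := fun ξ => mu ψ ξ ^ 2)
      (Finset.subset_univ (Finset.univ.filter (Cj φ)))
    omega
  rw [mul_ne_zero_iff] at hη
  set S := (orb (h.cc φ)).offDiag.image fun q => q.1 * q.2⁻¹ with hS
  have hSc : S.card + tt P ≤ tt P ^ 2 := by
    have h3 : S.card ≤ (orb (h.cc φ)).offDiag.card := Finset.card_image_le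
    rw [Finset.offDiag_card] at h3
    have h4 := card_orb_le (h.cc φ)
    obtain ⟨k, hk⟩ := Nat.exists_eq_add_of_le h4
    have h5 : (orb (h.cc φ)).card ≤ (orb (h.cc φ)).card * (orb (h.cc φ)).card := Nat.le_mul_self _
    have h6 : k ≤ k * k := Nat.le_mul_self _
    zify [h5] at h3 hk h6 ⊢
    rw [hk]
    nlinarith [mul_nonneg (Nat.cast_nonneg (α := ℤ) k) (Nat.cast_nonneg (orb (h.cc φ)).card)]
  have hSm : ∀ ξ, mu η ξ ≠ 0 → h.cc ξ ≠ 1 → h.cc ξ ∈ S := fun ξ hξ hξ1 => by
    by_contra hc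
    have h3 : (fun c : CC P => Θ c) = ∑ a : IrrCharacter (CC P), ∑ b : IrrCharacter (CC P),
        ((mu ψ a : ℂ) * mu ψ b) • fun c => (a : CC P → ℂ) c * conj ((b : CC P → ℂ) c) := by
      ext c
      simp only [hΘdef, Pi.mul_apply, apply_eq_sum_mu ψ c, map_sum, Finset.sum_mul_sum, map_mul,
        map_natCast, Finset.sum_apply, Pi.smul_apply, smul_eq_mul]
      exact Finset.sum_congr rfl fun a _ => Finset.sum_congr rfl fun b _ => by ring
    have h4 := hres ξ
    rw [h3, classInner_sum_left, Finset.sum_eq_zero, eq_comm, Nat.cast_eq_zero,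
      Finset.sum_eq_zero_iff] at h4
    · exact mul_ne_zero hη.1 hξ (h4 η (Finset.mem_univ _))
    intro a _
    rw [classInner_sum_left]
    refine Finset.sum_eq_zero fun b _ => ?_
    rw [classInner_smul_left]
    by_cases ha : mu ψ a = 0
    · simp [ha]
    by_cases hb : mu ψ b = 0
    · simp [hb]
    rw [Eig.classInner_eq_zero h (κ := h.cc a * (h.cc b)⁻¹) (fun x c => ?_) (h.eig_cc ξ), mul_zero]
    · intro e
      refine hc (Finset.mem_image.2 ⟨(h.cc a, h.cc b),
        Finset.mem_offDiag.2 ⟨hcj a ha, hcj b hb, fun e' => hξ1 ?_⟩, e⟩)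
      rw [← e, show h.cc a = h.cc b from e']
      ext x; simp
    · rw [h.eig_cc, h.eig_cc, map_mul, conj_monoidHom_units']
      simp only [MonoidHom.mul_apply, Units.val_mul]
      ring
  obtain ⟨φ₁, hm₁, hφ₁⟩ := h.exists_cc_ne hG hη1
  exact h.false_of_single_orbit hφ₁ hm₁
    (fun φ' h3 h4 => h.single_orbit S hSm (by omega) hφ₁ hm₁ h3 h4) hη.2 ht

end Star

end Cfsg.Agent.Ch.BL
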