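import Mathlib
import Cfsg.Agent.Ch.Clifford
import Cfsg.Agent.Ch.SmallDegree
import Cfsg.Agent.GT.PiGroups

/-!
# Groups all of whose character degrees are less than `p`
-/

set_option autoImplicit false

namespace Cfsg.Agent.Ch

open Cfsg
open scoped ComplexConjugate Pointwise

universe u

variable {G : Type*} [Group G]

/-- Every irreducible degree of a subgroup is bounded by an irreducible degree of the group. -/
theorem degS_exists_le_of_subgroup [Finite G] (H : Subgroup G) {θ : H → ℂ}
    (hθ : IsIrrCharacter H θ) : ∃ χ, IsIrrCharacter G χ ∧ charDegree θ ≤ charDegree χ := by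
  have := Fintype.ofFinite H
  obtain ⟨χ, hχ, hne⟩ := exists_irr_over H hθ
  exact ⟨χ, hχ, (hχ.isCharacter.restrict H).charDegree_irr_le hθ hne⟩

/-- Two Sylow subgroups contained in a subgroup with normal Sylow subgroups are equal. -/
theorem degS_sylow_eq_of_le {p : ℕ} {P Q : Sylow p G} {H : Subgroup G} (hP : P ≤ H) (hQ : Q ≤ H)
    (h : (P.subtype hP : Subgroup H).Normal) : P = Q := by
  have h1 := (P.subtype hP).isPGroup'.le_sylow_of_normal (Q.subtype hQ)
  exact Sylow.ext (P.is_maximal' Q.isPGroup' fun x hx => h1 (x := ⟨x, hP hx⟩) hx).symm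

/-- If the nonidentity elements of `P ≤ H` fix only the trivial coset of `H` and all irreducible
degrees are less than `|P|` then `H` is the whole group. -/
theorem degS_eq_top_of_TI [Finite G] {P H : Subgroup G} (hPH : P ≤ H)
    (hP : ∀ x ∈ P, x ≠ 1 → ∀ y : G, y⁻¹ * x * y ∈ H → y ∈ H)
    (hd : ∀ χ, IsIrrCharacter G χ → charDegree χ < Nat.card P) : H = ⊤ := by
  classical
  have := Fintype.ofFinite G
  have hπ := isCharacter_indFun H (IsCharacter.one (G := H))
  have hφ := hπ.sub_irr IsIrrCharacter.one (by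
    rw [classInner_indFun_left H _ (IsClassFunction.const 1), classInner_one_one]
    exact one_ne_zero)
  set φ := indFun H (fun _ => (1 : ℂ)) - fun _ => 1 with hφd
  have h0 : ∀ x : P, x ≠ 1 → φ x = 0 := fun x hx => by
    have : ∀ y : G, extendByZero H (fun _ => (1 : ℂ)) (y⁻¹ * x * y) =
        extendByZero H (fun _ => (1 : ℂ)) y := fun y => by
      by_cases hy : y ∈ H
      · rw [extendByZero_of_mem _ _ hy, extendByZero_of_mem _ _
          (H.mul_mem (H.mul_mem (H.inv_mem hy) (hPH x.2)) hy)]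
      · rw [extendByZero_of_not_mem _ _ hy, extendByZero_of_not_mem _ _
          fun h => hy (hP x x.2 (fun h => hx (Subtype.ext h)) y h)]
    rw [hφd, Pi.sub_apply, indFun_apply, Finset.sum_congr rfl fun y _ => this y, sum_extendByZero]
    simp [← Nat.card_eq_fintype_card]
  obtain ⟨m, hm, -, hdeg⟩ := hφ.exists_nat_classInner_self
  obtain ⟨m', hm', hsum⟩ := hφ.exists_mult
  obtain rfl : m = m' := funext fun χ => by exact_mod_cast (hm χ).symm.trans (hm' χ)
  have h1 : (Nat.card P : ℝ) * (classInner (fun x : P => φ x) fun _ => 1).re = charDegree φ := by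
    rw [← hφ.re_apply_one, ← Complex.re_ofReal_mul, Complex.ofReal_natCast, card_mul_classInner,
      Finset.sum_eq_single 1 (fun x _ hx => by rw [h0 x hx, zero_mul]) (by simp)]
    simp
  have h2 : ((∑ χ, m χ : ℕ) : ℝ) ≤ (classInner (fun x : P => φ x) fun _ => 1).re := by
    rw [show (fun x : P => φ x) = ∑ χ : IrrCharacter G, m χ • fun x : P => (χ : G → ℂ) x by
      ext x; rw [hsum]; simp, classInner_sum_left, Complex.re_sum, Nat.cast_sum]
    refine Finset.sum_le_sum fun χ _ => ?_
    rw [classInner_nsmul_left, ← Complex.ofReal_natCast, Complex.re_ofReal_mul]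
    by_cases h : m χ = 0
    · simp [h]
    refine le_mul_of_one_le_right (Nat.cast_nonneg _)
      ((χ.isCharacter.restrict P).one_le_re_classInner IsCharacter.one ?_)
    refine classInner_res_ne_zero_trans hPH χ.isCharacter IsIrrCharacter.one IsCharacter.one ?_
      (by rw [classInner_one_one]; exact one_ne_zero)
    rw [← classInner_indFun_eq_res H IsCharacter.one χ.isCharacter,
      ← sub_add_cancel (indFun H fun _ => (1 : ℂ)) fun _ => 1]
    exact (hφ.classInner_add_ne_zero_iff IsCharacter.one χ.isCharacter).2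
      (Or.inl (by rw [hm]; exact_mod_cast h))
  have h3 : Nat.card P * ∑ χ, m χ ≤ charDegree φ := by
    rw [← Nat.cast_le (α := ℝ), ← h1, Nat.cast_mul]
    exact mul_le_mul_of_nonneg_left h2 (Nat.cast_nonneg _)
  have h4 : charDegree φ + ∑ χ, m χ ≤ Nat.card P * ∑ χ, m χ := by
    rw [hdeg, Finset.mul_sum, ← Finset.sum_add_distrib]
    exact Finset.sum_le_sum fun χ _ => by have := hd χ χ.2; nlinarith
  have h5 : charDegree φ = 0 := by
    rw [show ∑ χ, m χ = 0 by omega] at h4
    omega
  rw [hφ.charDegree_eq_iff, hφd, Pi.sub_apply, indFun_one, mul_one, Nat.cast_zero,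
    sub_eq_zero] at h5
  exact Subgroup.index_eq_one.1 (by exact_mod_cast h5)

theorem degS_comm_of_lt [Finite G] {p : ℕ} (hp : p.Prime)
    (hd : ∀ χ, IsIrrCharacter G χ → charDegree χ < p) {P : Subgroup G} (hP : IsPGroup p P) :
    ∀ a ∈ P, ∀ b ∈ P, a * b = b * a := by
  have H : ∀ a b : P, a * b = b * a := comm_iff_forall_irr_linear.2 fun θ => by
    obtain ⟨χ, hχ, h⟩ := degS_exists_le_of_subgroup P θ.2
    refine θ.2.apply_one_eq_one_of_lt_primes fun q hq hqd => ?_
    obtain rfl : q = p := (GT.isPGroup_iff_isPiNum hp).1 hP q hq hqd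
    exact h.trans_lt (hd χ hχ)
  exact fun a ha b hb => congrArg Subtype.val (H ⟨a, ha⟩ ⟨b, hb⟩)

theorem degS_normal_aux {p : ℕ} [hp : Fact p.Prime] (n : ℕ) : ∀ (G : Type u) [Group G] [Finite G],
    Nat.card G = n → (∀ χ, IsIrrCharacter G χ → charDegree χ < p) →
      ∀ P : Sylow p G, (P : Subgroup G).Normal := by
  induction n using Nat.strong_induction_on with | _ n ih => ?_
  intro G _ _ hn hd P
  subst hn
  by_cases hZ : (P : Subgroup G) ⊓ Subgroup.center G = ⊥
  swap
  · set Z := (P : Subgroup G) ⊓ Subgroup.center G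
    have : Z.Normal := ⟨fun x hx g => by
      rwa [Subgroup.mem_center_iff.1 hx.2 g, mul_inv_cancel_right]⟩
    have h1 := (ih _ (GT.card_quotient_lt hZ) (G ⧸ Z) rfl (fun χ hχ => hd _ hχ.comp_mk)
      (P.mapSurjective (QuotientGroup.mk'_surjective Z))).comap (QuotientGroup.mk' Z)
    rwa [Sylow.coe_mapSurjective, Subgroup.comap_map_eq, QuotientGroup.ker_mk',
      sup_of_le_left inf_le_left] at h1
  by_cases hP : (P : Subgroup G) = ⊥
  · rw [hP]; infer_instance
  refine Subgroup.normalizer_eq_top_iff.1 (degS_eq_top_of_TI Subgroup.le_normalizer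
    (fun x hx hx1 y hy => ?_) fun χ hχ => (hd χ hχ).trans_le (Nat.le_of_dvd Nat.card_pos ?_))
  · have hxQ : x ∈ (y • P : Sylow p G) := by
      have h1 : IsPGroup p (Subgroup.zpowers (y⁻¹ * x * y)) := by
        have := (P.isPGroup'.to_le (Subgroup.zpowers_le.2 hx)).map (MulAut.conj y⁻¹).toMonoidHom
        rwa [MonoidHom.map_zpowers, MulEquiv.coe_toMonoidHom, MulAut.conj_apply, inv_inv] at this
      have h2 : y⁻¹ * x * y ∈ P :=
        (h1.inf_normalizer_sylow P ▸ Subgroup.mem_inf.2 ⟨Subgroup.mem_zpowers _, hy⟩ :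
          y⁻¹ * x * y ∈ _ ⊓ (P : Subgroup G)).2
      rw [← SetLike.mem_coe, Sylow.coe_smul, Set.mem_smul_set_iff_inv_smul_mem]
      simpa using h2
    have hC : ∀ Q : Sylow p G, x ∈ Q → (Q : Subgroup G) ≤ Subgroup.centralizer {x} :=
      fun Q hQ g hg => Subgroup.mem_centralizer_singleton_iff.2
        (degS_comm_of_lt hp.out hd Q.isPGroup' g hg x hQ)
    have hne : Subgroup.centralizer ({x} : Set G) ≠ ⊤ := fun h => hx1 (Subgroup.mem_bot.1 (hZ ▸
      ⟨hx, Subgroup.mem_center_iff.2 fun g => Subgroup.mem_centralizer_singleton_iff.1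
        (h ▸ Subgroup.mem_top g)⟩))
    refine Sylow.smul_eq_iff_mem_normalizer.1 (degS_sylow_eq_of_le (hC P hx) (hC _ hxQ)
      (ih _ (GT.card_lt_of_ne_top hne) _ rfl (fun θ hθ => ?_) _)).symm
    obtain ⟨χ, hχ, h⟩ := degS_exists_le_of_subgroup _ hθ
    exact h.trans_lt (hd χ hχ)
  · obtain ⟨q, hq, hqd⟩ := GT.exists_prime_dvd_card_of_ne_bot hP
    obtain rfl : q = p := (GT.isPGroup_iff_isPiNum hp.out).1 P.isPGroup' q hq hqd
    exact hqd

/-- If all irreducible degrees are less than `p` then the Sylow `p`-subgroup is normal. -/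
theorem degS_normal_of_lt [Finite G] {p : ℕ} [Fact p.Prime]
    (hd : ∀ χ, IsIrrCharacter G χ → charDegree χ < p) (P : Sylow p G) :
    (P : Subgroup G).Normal :=
  degS_normal_aux _ G rfl hd P

end Cfsg.Agent.Ch
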