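import Mathlib
import Cfsg.Agent.Ch.Deg12C
import Cfsg.Agent.Ch.DegSylow
import Cfsg.Agent.Ch.DegKernel
import Cfsg.Agent.Ch.Burnside
import Cfsg.Agent.Ch.Table

/-!
# An abelian subgroup of index at most `(b!)²`
-/

set_option autoImplicit false

namespace Cfsg.Agent.Ch

open Cfsg

universe u

variable {G : Type*} [Group G] [Finite G] {b : ℕ}

/-- If all degrees are at most `b`, a nontrivial class has at most `b²` elements. -/
theorem deg12_exists_small_class [Nontrivial G]
    (hb : ∀ χ, IsIrrCharacter G χ → charDegree χ ≤ b) :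
    ∃ x : G, x ≠ 1 ∧ (Subgroup.centralizer ({x} : Set G)).index ≤ b ^ 2 := by
  classical
  have := Fintype.ofFinite G
  have := Fintype.ofFinite (ConjClasses G)
  by_contra H
  push Not at H
  have h1 := sum_eq_sum_conjClasses (G := G) (fun _ => (1 : ℕ)) fun _ _ _ => rfl
  simp only [smul_eq_mul, mul_one, Finset.sum_const, Finset.card_univ,
    ← Nat.card_eq_fintype_card] at h1
  have h2 := sum_sq_charDegree (G := G)
  rw [← Finset.add_sum_erase _ _ (Finset.mem_univ (irrOne G))] at h2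
  rw [← Finset.add_sum_erase _ _ (Finset.mem_univ (ConjClasses.mk (1 : G)))] at h1
  have h3 := Finset.sum_le_card_nsmul (Finset.univ.erase (irrOne G))
    (fun χ => charDegree (χ : G → ℂ) ^ 2) (b ^ 2) fun χ _ => Nat.pow_le_pow_left (hb _ χ.2) 2
  have h4 := Finset.card_nsmul_le_sum (Finset.univ.erase (ConjClasses.mk (1 : G)))
    (fun C => (Subgroup.centralizer ({Quotient.out C} : Set G)).index) (b ^ 2 + 1) fun C hC =>
      H _ fun h => (Finset.mem_erase.1 hC).1 (by rw [← conjClasses_mk_out C, h])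
  rw [Finset.card_erase_of_mem (Finset.mem_univ _), Finset.card_univ, smul_eq_mul] at h3 h4
  rw [fintype_card_irr, Nat.card_eq_fintype_card] at h3
  have h5 : charDegree (irrOne G : G → ℂ) = 1 := charDegree_one
  have h6 := Subgroup.index_ne_zero_of_finite
    (H := Subgroup.centralizer ({Quotient.out (ConjClasses.mk (1 : G))} : Set G))
  have h7 : 1 < Nat.card G := Finite.one_lt_card
  rw [h5] at h2
  generalize Fintype.card (ConjClasses G) - 1 = k at h3 h4
  rcases k with _ | k
  · omega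
  · nlinarith [Nat.pos_of_ne_zero h6]

theorem deg12_fact_five (h : 5 ≤ b) : b ^ 4 * (b / 2).factorial ^ 2 ≤ b.factorial ^ 2 := by
  obtain ⟨c, rfl⟩ := Nat.exists_eq_add_of_le' (show 3 ≤ b by omega)
  have h1 : ((c + 3) / 2).factorial ≤ c.factorial := Nat.factorial_le (by omega)
  rw [show (c + 3) ^ 4 = ((c + 3) ^ 2) ^ 2 by ring, ← mul_pow]
  refine Nat.pow_le_pow_left ?_ 2
  rw [Nat.factorial_succ, Nat.factorial_succ, Nat.factorial_succ, ← mul_assoc, ← mul_assoc]
  exact Nat.mul_le_mul (by nlinarith) h1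

theorem deg12_fact_three (h : 3 ≤ b) : b ^ 3 * (b / 2).factorial ^ 2 ≤ b.factorial ^ 2 := by
  by_cases h5 : 5 ≤ b
  · exact le_trans (Nat.mul_le_mul_right _ (Nat.pow_le_pow_right (by omega) (by omega)))
      (deg12_fact_five h5)
  · interval_cases b <;> decide

theorem deg12_fact_pred (h : 1 ≤ b) : b ^ 2 * (b - 1).factorial ^ 2 ≤ b.factorial ^ 2 := by
  obtain ⟨c, rfl⟩ := Nat.exists_eq_add_of_le' h
  rw [← mul_pow, Nat.factorial_succ, Nat.add_sub_cancel]

/-- A subgroup with smaller degrees and small index, in the solvable case. -/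
theorem deg12_step_frob (hb : ∀ χ, IsIrrCharacter G χ → charDegree χ ≤ b) {N K : Subgroup G}
    [N.Normal] [K.Normal] (hK : ¬ commutator G ≤ K) (h : FrobSec N K) :
    ∃ (H : Subgroup G) (c : ℕ), c < b ∧ (∀ θ, IsIrrCharacter H θ → charDegree θ ≤ c) ∧
      H.index * c.factorial ^ 2 ≤ b.factorial ^ 2 := by
  obtain ⟨χ, hχ, h1⟩ := h.exists_charDegree_eq
  have h2 : N.index ≤ b := h1 ▸ hb χ hχ
  have h3 : 1 < N.index := Subgroup.one_lt_index_of_ne_top h.ne_top
  by_cases h4 : ∀ θ, IsIrrCharacter N θ → charDegree θ < b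
  · exact ⟨N, b - 1, by omega, fun θ hθ => Nat.le_sub_one_of_lt (h4 θ hθ),
      le_trans (Nat.mul_le_mul_right _ (by nlinarith)) (deg12_fact_pred (by omega))⟩
  push Not at h4
  obtain ⟨θ, hθ, h4⟩ := h4
  obtain ⟨ψ, hψ, h5⟩ := degS_exists_le_of_subgroup N hθ
  have h6 : charDegree θ = b := le_antisymm (h5.trans (hb ψ hψ)) h4
  have h7 := (h.exists_or_dvd hθ).resolve_left fun ⟨ξ, hξ, h7⟩ => by
    have := hb ξ hξ
    rw [h7, h6] at this
    nlinarith
  rw [h6] at h7
  have h8 : 3 ≤ b := by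
    by_contra h8
    obtain rfl : b = 2 := by omega
    have h9 := h.coprime
    rw [show N.index = 2 by omega] at h9
    exact h.lt.not_ge (Subgroup.relIndex_eq_one.1
      (Nat.eq_one_of_dvd_coprimes (h9.pow_right 2) dvd_rfl h7))
  refine ⟨K, b / 2, by omega, fun φ hφ => ?_, le_trans (Nat.mul_le_mul_right _ ?_)
    (deg12_fact_three h8)⟩
  · have := deg12_two_mul_le hK hb hφ
    omega
  · rw [← Subgroup.relIndex_mul_index h.lt.le, pow_succ]
    exact Nat.mul_le_mul (Nat.le_of_dvd (by positivity) h7) h2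

/-- A group with degrees at most four whose nontrivial normal subgroups contain the derived
subgroup is metabelian. -/
theorem deg12_metabelian_of_le_four (hb : ∀ χ, IsIrrCharacter G χ → charDegree χ ≤ 4)
    (hmin : ∀ M : Subgroup G, M.Normal → M ≠ ⊥ → commutator G ≤ M) :
    ⁅commutator G, commutator G⁆ = ⊥ := by
  by_contra H
  have h1 : Group.IsSolvable G := burnside_isSolvable_of_primes (p := 2) Nat.prime_three
    fun r hr hd => by
      by_contra h
      have := Fact.mk hr
      have h5 : 5 ≤ r := hr.five_le_of_ne_two_of_ne_three (fun h' => h (Or.inl h'))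
        fun h' => h (Or.inr h')
      have hlt : ∀ χ, IsIrrCharacter G χ → charDegree χ < r := fun χ hχ =>
        (hb χ hχ).trans_lt (by omega)
      obtain ⟨P⟩ : Nonempty (Sylow r G) := inferInstance
      have h2 := hmin _ (degS_normal_of_lt hlt P) (P.ne_bot_of_dvd_card hd)
      exact H (Subgroup.commutator_eq_bot_iff_le_centralizer.2 fun a ha b hb =>
        degS_comm_of_lt hr hlt P.isPGroup' b (h2 hb) a (h2 ha))
  exact (Group.IsSolvable.commutator_lt_of_ne_bot (H := commutator G) fun h => H (by simp [h])).not_ge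
    (hmin _ inferInstance H)

/-- A subgroup with smaller degrees and small index, in the nonsolvable case. -/
theorem deg12_step_perfect (hb : ∀ χ, IsIrrCharacter G χ → charDegree χ ≤ b)
    (h1 : commutator G ≠ ⊥) (h2 : commutator G ≤ ⁅commutator G, commutator G⁆) :
    ∃ (H : Subgroup G) (c : ℕ), c < b ∧ (∀ θ, IsIrrCharacter H θ → charDegree θ ≤ c) ∧
      H.index * c.factorial ^ 2 ≤ b.factorial ^ 2 := by
  obtain ⟨K, _, -, hK, hmin⟩ := deg12_exists_maximal (G := G) (K := ⊥) fun h => h1 (le_bot_iff.1 h)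
  have h3 : ⁅commutator (G ⧸ K), commutator (G ⧸ K)⁆ ≠ ⊥ := by
    rw [deg12_commutator_quotient, ← Subgroup.map_commutator, Ne, Subgroup.map_eq_bot_iff,
      QuotientGroup.ker_mk']
    exact fun h => hK (h2.trans h)
  have hq : ∀ χ, IsIrrCharacter (G ⧸ K) χ → charDegree χ ≤ b := fun χ hχ => hb _ hχ.comp_mk
  have h4 : 5 ≤ b := by_contra fun h =>
    h3 (deg12_metabelian_of_le_four (fun χ hχ => (hq χ hχ).trans (by omega)) hmin)
  have h5 : Subgroup.centralizer (commutator (G ⧸ K) : Set (G ⧸ K)) = ⊥ := by_contra fun h =>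
    h3 (Subgroup.commutator_eq_bot_iff_le_centralizer.2 (hmin _ inferInstance h))
  have : Nontrivial (G ⧸ K) := by
    by_contra h
    rw [not_nontrivial_iff_subsingleton] at h
    exact h3 (Subsingleton.elim _ _)
  obtain ⟨x, hx, h6⟩ := deg12_exists_small_class hq
  set H := (Subgroup.centralizer {x}).comap (QuotientGroup.mk' K)
  have h7 : H.index ≤ b ^ 2 := by
    rwa [Subgroup.index_comap_of_surjective _ (QuotientGroup.mk'_surjective K)]
  by_cases h8 : ∀ θ, IsIrrCharacter H θ → charDegree θ < b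
  · exact ⟨H, b - 1, by omega, fun θ hθ => Nat.le_sub_one_of_lt (h8 θ hθ),
      le_trans (Nat.mul_le_mul_right _ h7) (deg12_fact_pred (by omega))⟩
  push Not at h8
  obtain ⟨θ, hθ, h8⟩ := h8
  have hKH : K ≤ H := fun k hk => by
    rw [Subgroup.mem_comap, QuotientGroup.mk'_apply, (QuotientGroup.eq_one_iff k).2 hk]
    exact one_mem _
  have h9 : H.normalCore ≤ K := by
    rw [← QuotientGroup.ker_mk' K, ← Subgroup.map_eq_bot_iff]
    by_contra h
    have h10 := (hmin _ (Subgroup.Normal.map inferInstance _ (QuotientGroup.mk'_surjective K))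
      h).trans (Subgroup.map_le_iff_le_comap.2 H.normalCore_le)
    exact hx (Subgroup.mem_bot.1 (h5 ▸ fun y hy => (h10 hy x rfl).symm))
  have := Fintype.ofFinite H
  have h10 := deg12_index_dvd_sq (K := K.subgroupOf H) hθ fun g hg => by_contra fun h =>
    hg (h9 (degK_mem_normalCore hθ (fun χ hχ hne => by
      have h11 := (hχ.isCharacter.restrict H).charDegree_irr_le hθ hne
      have h12 := hb χ hχ
      rw [← hχ.coe_charDegree, ← hθ.coe_charDegree, Nat.cast_inj]
      exact le_antisymm (h12.trans h8) h11) h))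
  obtain ⟨ψ, hψ, h11⟩ := degS_exists_le_of_subgroup H hθ
  refine ⟨K, b / 2, by omega, fun φ hφ => ?_, le_trans (Nat.mul_le_mul_right _ ?_)
    (deg12_fact_five h4)⟩
  · have := deg12_two_mul_le hK hb hφ
    omega
  · rw [← Subgroup.relIndex_mul_index hKH, show b ^ 4 = b ^ 2 * b ^ 2 by ring]
    exact Nat.mul_le_mul ((Nat.le_of_dvd (pow_pos hθ.charDegree_pos 2) h10).trans
      (Nat.pow_le_pow_left (h11.trans (hb ψ hψ)) 2)) h7

theorem deg12_step (hb : ∀ χ, IsIrrCharacter G χ → charDegree χ ≤ b) (h : commutator G ≠ ⊥) :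
    ∃ (H : Subgroup G) (c : ℕ), c < b ∧ (∀ θ, IsIrrCharacter H θ → charDegree θ ≤ c) ∧
      H.index * c.factorial ^ 2 ≤ b.factorial ^ 2 := by
  by_cases h1 : commutator G ≤ ⁅commutator G, ⊤⁆
  swap
  · obtain ⟨θ, hθ, h2, -, h3⟩ := deg12_exists_vanish h1
    have h4 := hθ.charDegree_pos.trans_le (hb θ hθ)
    refine ⟨charCenter θ, b - 1, by omega, fun φ hφ =>
      Nat.le_sub_one_of_lt (deg12_lt_of_vanish hθ h2 le_rfl h3 hb hφ),
      le_trans (Nat.mul_le_mul_right _ ?_) (deg12_fact_pred h4)⟩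
    rw [← Deg.sq_charDegree_eq_index hθ _ le_rfl h3]
    exact Nat.pow_le_pow_left (hb θ hθ) 2
  by_cases h2 : commutator G ≤ ⁅commutator G, commutator G⁆
  · exact deg12_step_perfect hb h h2
  · obtain ⟨N, K, _, _, hK, hf⟩ := deg12_exists_frobSec h1 h2
    exact deg12_step_frob hb hK hf

/-- If all irreducible characters have degree at most `b`, there is an abelian subgroup of index
at most `(b!)²`. -/
theorem deg12_exists_abelian_index_le (b : ℕ) : ∀ (G : Type u) [Group G] [Finite G],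
    (∀ χ, IsIrrCharacter G χ → charDegree χ ≤ b) → ∃ A : Subgroup G,
      (∀ x ∈ A, ∀ y ∈ A, x * y = y * x) ∧ A.index ≤ b.factorial ^ 2 := by
  induction b using Nat.strong_induction_on with | h b ih => ?_
  intro G _ _ hb
  by_cases h : commutator G = ⊥
  · refine ⟨⊤, fun x _ y _ => ?_, by simpa using Nat.one_le_iff_ne_zero.2 (by positivity)⟩
    exact Subgroup.commutator_eq_bot_iff_le_centralizer.1 h (Subgroup.mem_top y) x trivial
  obtain ⟨H, c, hc, h1, h2⟩ := deg12_step hb h
  obtain ⟨A, hA, h3⟩ := ih c hc H h1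
  refine ⟨A.map H.subtype, ?_, le_trans ?_ h2⟩
  · rintro _ ⟨x, hx, rfl⟩ _ ⟨y, hy, rfl⟩
    rw [← map_mul, hA x hx y hy, map_mul]
  · rw [Subgroup.index_map_subtype, mul_comm]
    exact Nat.mul_le_mul_left _ h3

end Cfsg.Agent.Ch
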