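import Mathlib
import Cfsg.Prelude.Def_Transfer
import Cfsg.Agent.Ch.AbelianQuot

/-!
# Characters of extraspecial groups
-/

set_option autoImplicit false
set_option linter.style.haveILetI false
set_option linter.unusedSectionVars false

namespace Cfsg.Agent.Ch

open Function Cfsg
open scoped commutatorElement

variable {P : Type*} [Group P] [Finite P] {p : ℕ} [hp : Fact p.Prime]

/-- An irreducible character vanishes at `g` if some commutator `⁅y, g⁆` is central and outside the
kernel. -/
theorem apply_eq_zero_of_commutator_central {χ : P → ℂ} (hχ : IsIrrCharacter P χ) {g y : P}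
    (h : ⁅y, g⁆ ∈ Subgroup.center P) (h' : χ ⁅y, g⁆ ≠ χ 1) : χ g = 0 := by
  have h3 := hχ.apply_mul_of_mem_center h g
  rw [commutatorElement_def, inv_mul_cancel_right, hχ.isClassFunction] at h3
  by_contra h4
  exact h' (mul_right_cancel₀ h4 h3).symm

theorem extraspecial_vanish (hP : IsExtraspecial p P) {χ : P → ℂ} (hχ : IsIrrCharacter P χ)
    (h : ¬Subgroup.center P ≤ charKer χ) {x : P} (hx : x ∉ Subgroup.center P) : χ x = 0 := by
  rw [Subgroup.mem_center_iff] at hx
  push Not at hx
  obtain ⟨y, hy⟩ := hx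
  have h1 : ⁅y, x⁆ ∈ Subgroup.center P :=
    hP.1.2.2.le (Subgroup.commutator_mem_commutator trivial trivial)
  refine apply_eq_zero_of_commutator_central hχ h1 fun h2 => h ?_
  have : Fact (Nat.card (Subgroup.center P)).Prime := ⟨hP.2.symm ▸ hp.out⟩
  rcases ((charKer χ).subgroupOf (Subgroup.center P)).eq_bot_or_eq_top_of_prime_card with h3 | h3
  · have h4 : (⟨_, h1⟩ : Subgroup.center P) ∈ (charKer χ).subgroupOf (Subgroup.center P) :=
      hχ.mem_charKer.2 h2
    rw [h3, Subgroup.mem_bot] at h4
    exact absurd (commutatorElement_eq_one_iff_mul_comm.1 (congrArg Subtype.val h4)) hy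
  · exact Subgroup.subgroupOf_eq_top.1 h3

theorem extraspecial_degree (hP : IsExtraspecial p P) {n : ℕ} (hcard : Nat.card P = p ^ (2 * n + 1))
    {χ : P → ℂ} (hχ : IsIrrCharacter P χ) (h : ¬Subgroup.center P ≤ charKer χ) :
    χ 1 = (p : ℂ) ^ n := by
  have := Fintype.ofFinite P
  have := Fintype.ofFinite (Subgroup.center P)
  have h1 := (classInner_res_self_eq_index_iff (Subgroup.center P) hχ).2
    fun g hg => extraspecial_vanish hP hχ h hg
  obtain ⟨f, hf, -⟩ := hχ.exists_center_hom
  have h2 : (fun z : Subgroup.center P => χ z) = χ 1 • fun z => (f z : ℂ) := funext fun z => by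
    have := hf z 1
    rwa [mul_one, mul_comm] at this
  have h3 : (Subgroup.center P).index = (p ^ n) ^ 2 := by
    have := (Subgroup.center P).card_mul_index
    rw [hP.2, hcard, pow_succ', mul_right_inj' hp.out.ne_zero] at this
    rw [this, ← pow_mul, mul_comm]
  rw [h2, classInner_smul_left, classInner_smul_right, classInner_monoidHom_units, if_pos rfl,
    mul_one, h3,
    ← hχ.isCharacter.coe_charDegree, Complex.conj_natCast, ← sq] at h1
  rw [← hχ.isCharacter.coe_charDegree]
  exact_mod_cast (Nat.pow_left_injective two_ne_zero (by exact_mod_cast h1) : charDegree χ = p ^ n)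

theorem extraspecial_linear_iff (hP : IsExtraspecial p P) {χ : P → ℂ} (hχ : IsIrrCharacter P χ) :
    χ 1 = 1 ↔ Subgroup.center P ≤ charKer χ := by
  rw [hχ.apply_one_eq_one_iff_commutator_le, hP.1.2.2]

end Cfsg.Agent.Ch
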