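import Mathlib
import Cfsg.Agent.Ch.Jordan
import Cfsg.Agent.Ch.Blichfeldt
import Cfsg.Agent.Ch.MGroup
import Cfsg.Agent.Deg.Basic

/-!
# An explicit bound in Jordan's theorem on finite linear groups
-/

set_option autoImplicit false

namespace Cfsg

open Cfsg.Agent Cfsg.Agent.Ch
open scoped commutatorElement

variable {G : Type*} [Group G] [Finite G] {χ : G → ℂ}

theorem Agent.Ch.jordan_index_normalCore_dvd (H : Subgroup G) :
    H.normalCore.index ∣ H.index.factorial := by
  rw [Subgroup.normalCore_eq_ker, Subgroup.index_ker, Subgroup.index, ← Nat.card_perm]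
  exact Subgroup.card_subgroup_dvd_card _

/-- For a monomial irreducible character of degree `n` there is a normal subgroup of index dividing
`n!` which is abelian modulo the kernel. -/
theorem Agent.Ch.IsMonomial.exists_normal {G : Type*} [Group G] [Fintype G] {χ : G → ℂ}
    (h : IsMonomial χ) : ∃ B : Subgroup G, B.Normal ∧ B.index ∣ (charDegree χ).factorial ∧
      ⁅B, B⁆ ≤ charKer χ := by
  obtain ⟨H, lam, rfl⟩ := h
  have hl := isCharacter_monoidHom_units lam
  refine ⟨H.normalCore, inferInstance, ?_, ?_⟩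
  · rw [Deg.charDegree_indFun H hl, Deg.charDegree_linear, mul_one]
    exact jordan_index_normalCore_dvd H
  · rw [(isCharacter_indFun H hl).le_charKer_iff]
    have hle : ⁅H.normalCore, H.normalCore⁆ ≤ H :=
      (Subgroup.commutator_le_left _ _).trans H.normalCore_le
    refine fun x hx => indFun_apply_eq_of_normal hle (fun y hy => ?_) hx
    have : ⁅H.normalCore, H.normalCore⁆ ≤ lam.ker.map H.subtype := by
      refine Subgroup.commutator_le.2 fun a ha b hb => ⟨⁅(⟨a, H.normalCore_le ha⟩ : H),
        (⟨b, H.normalCore_le hb⟩ : H)⁆, ?_, rfl⟩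
      rw [SetLike.mem_coe, MonoidHom.mem_ker, map_commutatorElement,
        commutatorElement_eq_one_iff_mul_comm, mul_comm]
    obtain ⟨z, hz, rfl⟩ := this hy
    rw [map_one]
    exact congrArg _ hz

/-- A nilpotent linear group of degree `n` has an abelian normal subgroup of index dividing
`n!`. -/
theorem IsCharacter.exists_normal_of_isNilpotent [Group.IsNilpotent G] (h : IsCharacter G χ) :
    ∃ B : Subgroup G, B.Normal ∧ B.index ∣ (charDegree χ).factorial ∧ ⁅B, B⁆ ≤ charKer χ := by
  have := Fintype.ofFinite G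
  refine h.induction_on (P := fun χ => ∃ B : Subgroup G, B.Normal ∧
    B.index ∣ (charDegree χ).factorial ∧ ⁅B, B⁆ ≤ charKer χ)
    ⟨⊤, inferInstance, by simp, fun _ _ _ => rfl⟩
    (fun χ hχ => (isMonomial_of_isNilpotent hχ).exists_normal) ?_
  rintro χ ψ hχ hψ ⟨B, hB, h1, h2⟩ ⟨C, hC, h3, h4⟩
  refine ⟨B ⊓ C, inferInstance, ?_, ?_⟩
  · rw [hχ.charDegree_add hψ, ← Subgroup.relIndex_mul_index inf_le_right,
      Subgroup.inf_relIndex_right]
    exact (Nat.mul_dvd_mul ((B.relIndex_dvd_index_of_normal C).trans h1) h3).trans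
      (Nat.factorial_mul_factorial_dvd_factorial_add _ _)
  · rw [hχ.charKer_add hψ]
    exact le_inf ((Subgroup.commutator_mono inf_le_left inf_le_left).trans h2)
      ((Subgroup.commutator_mono inf_le_right inf_le_right).trans h4)

/-- Jordan's theorem with an explicit bound. -/
theorem IsCharacter.exists_jordan_bound (h : IsCharacter G χ) (hf : charKer χ = ⊥) :
    ∃ A : Subgroup G, A.Normal ∧ (∀ x ∈ A, ∀ y ∈ A, x * y = y * x) ∧
      A.index ≤ (charDegree χ).factorial *
        12 ^ (charDegree χ * (Nat.primeCounting (charDegree χ + 1) + 1)) := by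
  classical
  obtain ⟨A, hA, hab, hJ⟩ := h.exists_jordan_subgroup hf
  refine ⟨A, hA, hab, ?_⟩
  set n := charDegree χ with hn
  obtain ⟨H, hH, hHab⟩ := h.exists_abelian_isPiHall hf hn.ge
  have h1 : A.index = A.relIndex H * (H ⊔ A).index := by
    rw [← Subgroup.relIndex_sup_right, Subgroup.relIndex_mul_index le_sup_right]
  set b := (H ⊔ A).index with hb
  have hb0 : b ≠ 0 := Subgroup.index_ne_zero_of_finite
  have h2 : ∀ p ∈ b.primeFactors, ∃ k, p ^ k ∣ n.factorial ∧
      p ^ b.factorization p ≤ p ^ k * 12 ^ n := by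
    intro p hp
    have hp' := Nat.prime_of_mem_primeFactors hp
    have := Fact.mk hp'
    obtain ⟨P⟩ : Nonempty (Sylow p G) := inferInstance
    have := P.isPGroup'.isNilpotent
    obtain ⟨B, -, hB, hB'⟩ := (h.restrict P).exists_normal_of_isNilpotent
    rw [h.charKer_restrict, hf, Subgroup.bot_subgroupOf, le_bot_iff,
      Subgroup.commutator_eq_bot_iff_le_centralizer] at hB'
    obtain ⟨k, hk⟩ := P.isPGroup'.index B
    refine ⟨k, by rwa [hk, charDegree_restrict] at hB, ?_⟩
    have h3 : p ^ b.factorization p ∣ A.relIndex P := by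
      refine Nat.Coprime.dvd_of_dvd_mul_right (n := (P ⊔ A : Subgroup G).index)
        (((Nat.Prime.coprime_iff_not_dvd hp').2 fun hd => P.not_dvd_index
          (hd.trans (Subgroup.index_dvd_of_le le_sup_left))).pow_left _) ?_
      rw [← Subgroup.relIndex_sup_right, Subgroup.relIndex_mul_index le_sup_right, h1]
      exact (Nat.ordProj_dvd b p).mul_left _
    have h4 := Subgroup.relIndex_inf_mul_relIndex A (B.map (P : Subgroup G).subtype) P
    rw [inf_of_le_left (Subgroup.map_subtype_le B)] at h4
    have h5 : (B.map (P : Subgroup G).subtype).relIndex P = p ^ k := by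
      rw [Subgroup.relIndex, GT.subgroupOf_map_subtype_self, hk]
    have h6 : A.relIndex (B.map (P : Subgroup G).subtype) ≤ 12 ^ n := hJ _ (by
      rintro _ ⟨x, hx, rfl⟩ _ ⟨y, hy, rfl⟩
      exact congrArg Subtype.val (hB' hy x hx))
    refine (Nat.le_of_dvd (Nat.pos_of_ne_zero Subgroup.index_ne_zero_of_finite)
      (h3.trans (Subgroup.relIndex_dvd_of_le_left (H := A ⊓ B.map (P : Subgroup G).subtype) _
        inf_le_left))).trans ?_
    change (A ⊓ B.map (P : Subgroup G).subtype).relIndex P ≤ _
    rw [← h4, h5, mul_comm]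
    exact Nat.mul_le_mul_left _ h6
  choose! k hk1 hk2 using h2
  have h3 : b.primeFactors.card ≤ Nat.primeCounting (n + 1) := by
    rw [← Nat.primesLE_card_eq_primeCounting]
    refine Finset.card_le_card fun p hp => Nat.mem_primesLE.2
      ⟨not_lt.1 (hH.index p (Nat.prime_of_mem_primeFactors hp) ?_), Nat.prime_of_mem_primeFactors hp⟩
    exact (Nat.dvd_of_mem_primeFactors hp).trans (Subgroup.index_dvd_of_le le_sup_left)
  have h4 : ∏ p ∈ b.primeFactors, p ^ k p ≤ n.factorial := by
    refine Nat.le_of_dvd n.factorial_pos (Finset.prod_dvd_of_isRelPrime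
      (fun p hp q hq hpq => ?_) hk1)
    exact Nat.coprime_iff_isRelPrime.1 (Nat.coprime_pow_primes _ _
      (Nat.prime_of_mem_primeFactors hp) (Nat.prime_of_mem_primeFactors hq) hpq)
  have h5 : b ≤ n.factorial * (12 ^ n) ^ Nat.primeCounting (n + 1) := by
    calc b = ∏ p ∈ b.primeFactors, p ^ b.factorization p :=
          (Nat.prod_factorization_pow_eq_self hb0).symm
      _ ≤ ∏ p ∈ b.primeFactors, p ^ k p * 12 ^ n := Finset.prod_le_prod' hk2
      _ ≤ _ := by
        rw [Finset.prod_mul_distrib, Finset.prod_const]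
        exact Nat.mul_le_mul h4 (Nat.pow_le_pow_right (by positivity) h3)
  rw [h1, pow_mul, pow_succ, ← mul_assoc, mul_comm]
  exact Nat.mul_le_mul h5 (hJ H hHab)

end Cfsg
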