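import Mathlib
import Cfsg.Agent.Ch.JordanBound
import Cfsg.Agent.Deg.PGrp
import Cfsg.Agent.GT.PGroupChain
import Cfsg.Agent.GT.Fitting

/-!
# Irreducible linear groups of degree less than `2 p`
-/

set_option autoImplicit false

namespace Cfsg.Agent.Ch

open Cfsg Module
open scoped ComplexConjugate

variable {G : Type*} [Group G] [Finite G]

theorem lin2p_eq_or_eq {ι : Type*} [Fintype ι] {μ : ι → ℂ} (hμ : ∀ i, ‖μ i‖ = 1) {a b ε : ℂ}
    (hε : ‖ε‖ = 1) (h : ∀ m : ℤ, ∑ i, μ i ^ m = a * ε ^ m + b) (i : ι) : μ i = 1 ∨ μ i = ε := by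
  have h0 : ε ≠ 0 := by rintro rfl; simp at hε
  have h1 : ∀ i, ((‖μ i - 1‖ ^ 2 * ‖μ i - ε‖ ^ 2 : ℝ) : ℂ) =
      (4 + ε + ε⁻¹) * μ i ^ (0 : ℤ) - 2 * (1 + ε⁻¹) * μ i ^ (1 : ℤ) - 2 * (1 + ε) * μ i ^ (-1 : ℤ) +
        ε⁻¹ * μ i ^ (2 : ℤ) + ε * μ i ^ (-2 : ℤ) := fun i => by
    have h2 : μ i ≠ 0 := fun h => by simpa [h] using hμ i
    push_cast
    rw [← Complex.mul_conj', ← Complex.mul_conj', map_sub, map_sub, ← Complex.inv_eq_conj hε,
      ← Complex.inv_eq_conj (hμ i), map_one]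
    field_simp
    ring
  have h2 : ((∑ i, ‖μ i - 1‖ ^ 2 * ‖μ i - ε‖ ^ 2 : ℝ) : ℂ) = 0 := by
    rw [Complex.ofReal_sum]
    simp only [h1, Finset.sum_add_distrib, Finset.sum_sub_distrib, ← Finset.mul_sum, h]
    field_simp
    ring
  have h3 := (Finset.sum_eq_zero_iff_of_nonneg fun i _ => by positivity).1
    (Complex.ofReal_eq_zero.1 h2) i (Finset.mem_univ i)
  simpa [sub_eq_zero] using h3

/-- An element with two eigenvalues `1` and `ε` close to each other generates an abelian normal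
subgroup. -/
theorem lin2p_comm {χ : G → ℂ} (hχ : IsCharacter G χ) (hf : charKer χ = ⊥) {z : G} {a b ε : ℂ}
    (hε : ‖ε‖ = 1) (hε1 : ‖ε - 1‖ < 1) (h : ∀ m : ℤ, χ (z ^ m) = a * ε ^ m + b) :
    ∀ x ∈ Subgroup.normalClosure ({z} : Set G), ∀ y ∈ Subgroup.normalClosure ({z} : Set G),
      x * y = y * x := by
  obtain ⟨ρ, hρ, hU⟩ := hχ.exists_unitary
  rw [← hρ, charKer_character, MonoidHom.ker_eq_bot_iff] at hf
  obtain ⟨e, l, he⟩ := diag_exists_basis_subgroup ρ (Subgroup.zpowers z) (by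
    rintro _ ⟨i, rfl⟩ _ ⟨j, rfl⟩
    exact (Commute.zpow_zpow_self z i j).eq)
  set w : Subgroup.zpowers z := ⟨z, Subgroup.mem_zpowers z⟩
  have h1 := lin2p_eq_or_eq (μ := fun i => l i w) (fun i => diag_norm_hom _ _) hε fun m => by
    rw [← h, ← congrFun hρ]
    simp only [← map_zpow]
    exact (trace_eq_sum_of_eigenbasis e _ _ (he (w ^ m))).symm
  have h2 : jordanDist ρ 1 z < 1 := (jordanDist_le (norm_nonneg _) (unitary_norm_sub_le (hU _) e _
    (he w) (norm_nonneg _) fun i => by rcases h1 i with h | h <;> simp [h])).trans_lt hε1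
  have h3 : jordanDist ρ ((1 + ε) / 2) z < 1 / 2 := (jordanDist_le (r := ‖ε - 1‖ / 2)
    (by positivity) (unitary_norm_sub_le (hU _) e _ (he w) (by positivity) fun i => by
      rcases h1 i with h | h
      · rw [h, show 1 - (1 + ε) / 2 = -(ε - 1) / 2 by ring]; simp [norm_sub_rev]
      · rw [h, show ε - (1 + ε) / 2 = (ε - 1) / 2 by ring]; simp)).trans_lt (by linarith)
  have hS : ∀ x ∈ Group.conjugatesOfSet ({z} : Set G), ∀ y ∈ Group.conjugatesOfSet ({z} : Set G),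
      x * y = y * x := fun x hx y hy => by
    obtain ⟨_, hx, hx'⟩ := Group.mem_conjugatesOfSet_iff.1 hx
    obtain ⟨_, hy, hy'⟩ := Group.mem_conjugatesOfSet_iff.1 hy
    rw [Set.mem_singleton_iff.1 hx] at hx'
    rw [Set.mem_singleton_iff.1 hy] at hy'
    obtain ⟨g, rfl⟩ := isConj_iff.1 hx'
    obtain ⟨k, rfl⟩ := isConj_iff.1 hy'
    exact jordan_comm_of_dist hU hf ((jordanDist_conj_le hU _ _ _).trans_lt h3)
      ((jordanDist_conj_le hU _ _ _).trans_lt h2)
  have h4 := (Subgroup.closure_le _).2 fun x hx => jordan_mem_of_comm hS (x := x) hx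
  exact fun x hx y hy => jordan_comm_of_mem (h4 hx) (h4 hy)

/-- A faithful character of degree less than `2 p` of a nonabelian `p`-group. -/
theorem lin2p_exists {P : Type*} [Group P] [Finite P] {p : ℕ} [hp : Fact p.Prime]
    (hP : IsPGroup p P) {χ : P → ℂ} (hχ : IsCharacter P χ) (hf : charKer χ = ⊥)
    (hd : charDegree χ < 2 * p) (hc : commutator P ≠ ⊥) {ζ : ℂ} (hζ : IsPrimitiveRoot ζ p) :
    ∃ z : P, ∃ b : ℕ, charDegree χ = p + b ∧ (∀ m : ℤ, χ (z ^ m) = p * ζ ^ m + b) ∧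
      ∀ [Fintype (Subgroup.zpowers z)],
        classInner (fun x : Subgroup.zpowers z => χ x) (fun _ => 1) = b := by
  have := Fintype.ofFinite P
  obtain ⟨θ, hθ, hne, h1⟩ : ∃ θ, IsIrrCharacter P θ ∧ classInner χ θ ≠ 0 ∧ charDegree θ ≠ 1 := by
    by_contra h
    push Not at h
    exact hc (eq_bot_iff.2 fun x hx => hf ▸ hχ.mem_charKer_iff_forall_constituent.2
      fun θ hθ hne => (Deg.charDegree_eq_one_iff_commutator_le hθ).1 (h θ hθ hne) hx)
  obtain ⟨ψ, hψ, rfl⟩ := hχ.exists_eq_irr_add hθ hne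
  rw [hθ.isCharacter.charDegree_add hψ] at hd ⊢
  obtain ⟨k, hk⟩ := Deg.exists_charDegree_eq_pow hP hθ
  have h2 : charDegree θ = p := by
    rcases k with _ | _ | k
    · exact absurd hk h1
    · simpa using hk
    · have h2 := hp.out.two_le
      have h3 : p ^ 2 ≤ p ^ (k + 1 + 1) := Nat.pow_le_pow_right (by omega) (by omega)
      nlinarith
  have h3 : commutator P ≤ charKer ψ := hψ.commutator_le_charKer_of_lt_primes fun q hq h => by
    obtain ⟨j, hj⟩ := hP.exists_card_eq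
    rw [(Nat.prime_dvd_prime_iff_eq hq hp.out).1 (hq.dvd_of_dvd_pow (hj ▸ h))]
    omega
  obtain ⟨w, hw, hwZ, hw1, hwp⟩ := GT.PG.exists_mem_center_of_normal hP _ hc
  obtain ⟨lam, h4, h5⟩ := hθ.exists_center_hom
  have h6 : ∀ x ∈ commutator P, x ∈ charKer θ → x = 1 := fun x hx h =>
    Subgroup.mem_bot.1 (hf ▸ inf_charKer_le_add θ ψ ⟨h, h3 hx⟩)
  have h7 : IsPrimitiveRoot (lam ⟨w, hwZ⟩ : ℂ) p := by
    rw [IsPrimitiveRoot.coe_units_iff, ← orderOf_eq_prime (x := lam ⟨w, hwZ⟩) (p := p)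
      (by rw [← map_pow]; exact (congrArg lam (Subtype.ext hwp)).trans (map_one _))
      fun h => hw1 (h6 w hw (h5.le (show (⟨w, hwZ⟩ : Subgroup.center P) ∈ lam.ker from h)))]
    exact IsPrimitiveRoot.orderOf _
  obtain ⟨j, -, hj⟩ := h7.eq_pow_of_pow_eq_one hζ.pow_eq_one
  have h8 : ∀ m : ℤ, θ ((w ^ j) ^ m) = p * ζ ^ m := fun m => by
    have h8 := h4 ((⟨w, hwZ⟩ ^ j) ^ m) 1
    rw [mul_one, map_zpow, map_pow, Units.val_zpow_eq_zpow_val, Units.val_pow_eq_pow_val, hj,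
      ← hθ.coe_charDegree, h2, mul_comm] at h8
    exact h8
  have h9 : Subgroup.zpowers (w ^ j) ≤ charKer ψ := Subgroup.zpowers_le.2 (h3 (pow_mem hw j))
  refine ⟨w ^ j, _, by rw [h2], fun m => by
    rw [Pi.add_apply, h8, apply_eq_of_mem_charKer (h9 ⟨m, rfl⟩), hψ.coe_charDegree], ?_⟩
  intro _
  have : (Subgroup.zpowers (w ^ j)).Normal := ⟨fun x hx g => by
    rwa [Subgroup.mem_center_iff.1 (Subgroup.zpowers_le.2 (pow_mem hwZ j) hx), mul_inv_cancel_right]⟩
  refine (classInner_add_left (fun x : Subgroup.zpowers (w ^ j) => θ x) (fun x => ψ x) _).trans ?_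
  rw [classInner_restrict_one_of_le_charKer _ h9, hθ.classInner_restrict_one_eq_zero _ fun h => ?_,
    zero_add, hψ.coe_charDegree]
  have h10 := (h8 1).symm.trans (apply_eq_of_mem_charKer (h ⟨1, rfl⟩))
  rw [← hθ.coe_charDegree, h2, zpow_one, mul_eq_left₀ (by exact_mod_cast hp.out.ne_zero)] at h10
  exact hζ.ne_one hp.out.one_lt h10

theorem lin2p_isMonomial {G : Type*} [Group G] [Fintype G] {p : ℕ} [hp : Fact p.Prime]
    (h7 : 7 ≤ p) {χ : G → ℂ} (hχ : IsIrrCharacter G χ) (hf : charKer χ = ⊥)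
    (hd : charDegree χ < 2 * p) (hne : charDegree χ ≠ p) {P : Subgroup G} (hP : IsPGroup p P)
    (hc : commutator P ≠ ⊥) : IsMonomial χ := by
  obtain ⟨z, b, h1, h2, h3⟩ := lin2p_exists hP (hχ.isCharacter.restrict P)
    (by rw [hχ.isCharacter.charKer_restrict, hf, Subgroup.bot_subgroupOf]) hd hc
    (Complex.isPrimitiveRoot_exp p hp.out.ne_zero)
  rw [charDegree_restrict] at h1
  have e : 2 * Real.pi * Complex.I / p = Complex.I * (2 * Real.pi / p : ℝ) := by push_cast; ring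
  have hA := lin2p_comm hχ.isCharacter hf (z := z)
    (by rw [e, Complex.norm_exp_I_mul_ofReal]) (by
      rw [e]
      refine Real.norm_exp_I_mul_ofReal_sub_one_le.trans_lt ?_
      have : (7 : ℝ) ≤ p := by exact_mod_cast h7
      rw [Real.norm_of_nonneg (by positivity), div_lt_one (by linarith)]
      linarith [Real.pi_lt_d2]) h2
  set A := Subgroup.normalClosure ({(z : G)} : Set G)
  have := Fintype.ofFinite A
  have := Fintype.ofFinite (Subgroup.zpowers z)
  obtain ⟨θ, hθ, h4⟩ := exists_irr_under A hχ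
  have h5 := hθ.apply_one_eq_one_of_comm fun a b => Subtype.ext (hA a a.2 b b.2)
  obtain ⟨k, hk, h6, h8⟩ := clifford_nat hχ hθ h4
  have h9 := clifford_apply_one hχ hθ h4
  rw [h6, h5, mul_one, ← hχ.coe_charDegree, ← Nat.cast_mul, Nat.cast_inj] at h9
  have hz : Subgroup.zpowers (z : G) ≤ A :=
    Subgroup.zpowers_le.2 (Subgroup.subset_normalClosure rfl)
  let f : Subgroup.zpowers z →* A := (P.subtype.comp (Subgroup.zpowers z).subtype).codRestrict A
    fun ⟨_, m, hm⟩ => hz ⟨m, congrArg Subtype.val hm⟩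
  obtain ⟨m, hm⟩ := ((isCharacter_sum_conjugates hθ.isCharacter).comp f).exists_nat_classInner
    IsCharacter.one
  have h10 : (b : ℂ) = k * m := by
    rw [← h3, ← hm, ← classInner_smul_left]
    exact congrArg (classInner · _) (funext fun x => congrFun h8 (f x))
  have h11 : k ∣ p := (Nat.dvd_add_left (Dvd.intro _ (by exact_mod_cast h10.symm))).1
    (h1 ▸ Dvd.intro _ h9.symm)
  obtain rfl : k = 1 := ((Nat.dvd_prime hp.out).1 h11).resolve_right fun h => by
    rw [h] at h9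
    have := hχ.charDegree_pos
    rcases hi : (inertia A θ).index with _ | _ | i <;> rw [hi] at h9
    · omega
    · omega
    · nlinarith
  have := Fintype.ofFinite (inertia A θ)
  obtain ⟨ψ, hψ, -, h12, -⟩ := clifford_corr_surj hθ rfl (le_inertia hθ.isClassFunction) hχ h4
  rw [← h12, Deg.charDegree_indFun _ hψ.isCharacter, one_mul,
    mul_eq_left₀ Subgroup.index_ne_zero_of_finite] at h9
  obtain ⟨lam, rfl⟩ := hψ.isCharacter.exists_monoidHom_of_apply_one
    (hψ.isCharacter.charDegree_eq_one_iff.1 h9)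
  exact ⟨_, lam, h12.symm⟩

/-- An irreducible linear group of degree less than `2 p` and different from `p` with a
nonabelian `p`-subgroup. -/
theorem lin2p_not_dvd {p : ℕ} [hp : Fact p.Prime] (h7 : 7 ≤ p) {χ : G → ℂ}
    (hχ : IsIrrCharacter G χ) (hf : charKer χ = ⊥) (hd : charDegree χ < 2 * p)
    (hne : charDegree χ ≠ p) {P : Subgroup G} (hP : IsPGroup p P) (hc : commutator P ≠ ⊥) :
    ¬ p ^ 2 ∣ (pCore p G).index := fun h => by
  have := Fintype.ofFinite G
  obtain ⟨B, _, h1, h2⟩ := (lin2p_isMonomial h7 hχ hf hd hne hP hc).exists_normal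
  rw [hf, le_bot_iff, Subgroup.commutator_self_eq_bot_iff] at h2
  have : Group.IsNilpotent B := GT.isNilpotent_of_isMulCommutative
  obtain ⟨S⟩ : Nonempty (Sylow p B) := inferInstance
  have h3 := h.trans (Subgroup.index_dvd_of_le (GT.pCoreOf_le_pCore (p := p) B))
  rw [← Subgroup.relIndex_mul_index (GT.pCoreOf_le B), Subgroup.relIndex, GT.pCoreOf_subgroupOf,
    GT.pCore_eq_sylow_of_isNilpotent S] at h3
  have h4 := (((hp.out.coprime_iff_not_dvd.2 S.not_dvd_index).pow_left 2).dvd_of_dvd_mul_left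
    h3).trans h1
  rw [hp.out.pow_dvd_factorial_iff (b := 2) (Nat.log_lt_of_lt_pow hχ.charDegree_pos.ne'
    (by nlinarith))] at h4
  have h5 := (Nat.div_lt_iff_lt_mul hp.out.pos).2 hd
  simp at h4
  omega

end Cfsg.Agent.Ch
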