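import Mathlib
import Cfsg.Agent.Ch.FrobeniusSchur
import Cfsg.Agent.Ch.Kernel

/-!
# Irreducible characters of indicator one are afforded by real matrices
-/

set_option autoImplicit false
open Cfsg Matrix
open scoped ComplexConjugate ComplexOrder

namespace Cfsg.Agent.Ch.FS

variable {G : Type*} [Group G] {ι : Type*} [Fintype ι] [DecidableEq ι]

/-- Entrywise complex conjugation of a matrix. -/
noncomputable def mconj : Matrix ι ι ℂ →+* Matrix ι ι ℂ := (starRingEnd ℂ).mapMatrix

theorem mconj_apply (M : Matrix ι ι ℂ) (i j : ι) : mconj M i j = conj (M i j) := rfl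

theorem mconj_mconj (M : Matrix ι ι ℂ) : mconj (mconj M) = M := by
  ext i j; simp [mconj_apply]

theorem mconj_smul (c : ℂ) (M : Matrix ι ι ℂ) : mconj (c • M) = conj c • mconj M := by
  ext i j; simp [mconj_apply]

theorem mconj_transpose (M : Matrix ι ι ℂ) : mconj Mᵀ = Mᴴ := by
  ext i j; simp [mconj_apply]

theorem mconj_conjTranspose (M : Matrix ι ι ℂ) : mconj Mᴴ = Mᵀ := by
  ext i j; simp [mconj_apply]

theorem trace_mconj (M : Matrix ι ι ℂ) : (mconj M).trace = conj M.trace := by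
  simp [Matrix.trace, mconj_apply]

/-- A "Hilbert 90" argument: if `A * conj A = 1` then `A * conj P = P` for an invertible `P`. -/
theorem exists_unit_of_mul_mconj {A : Matrix ι ι ℂ} (hA : A * mconj A = 1) :
    ∃ P : Matrix ι ι ℂ, IsUnit P ∧ A * mconj P = P := by
  let c : ℕ → ℂ := fun t => 1 + t * Complex.I
  have hc0 : ∀ t, conj (c t) ≠ 0 := fun t h => by
    have := congrArg Complex.re h
    simp [c] at this
  have hinj : Function.Injective fun t => -(c t) / conj (c t) := by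
    intro s t h
    simp only at h
    rw [div_eq_div_iff (hc0 s) (hc0 t)] at h
    have := congrArg Complex.im h
    simp [c] at this
    have h2 : (s : ℝ) = t := by linarith
    exact_mod_cast h2
  obtain ⟨_, ⟨t, rfl⟩, ht⟩ := (Set.infinite_range_of_injective hinj).exists_notMem_finite
    A.finite_spectrum
  rw [spectrum.notMem_iff] at ht
  refine ⟨c t • 1 + conj (c t) • A, ?_, ?_⟩
  · have e : c t • (1 : Matrix ι ι ℂ) + conj (c t) • A = (-conj (c t)) •
        (algebraMap ℂ (Matrix ι ι ℂ) (-(c t) / conj (c t)) - A) := by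
      rw [Algebra.algebraMap_eq_smul_one, smul_sub, smul_smul, neg_smul (conj (c t)) A,
        sub_neg_eq_add]
      congr 2
      field_simp [hc0 t]
    rw [e, Algebra.smul_def]
    exact ((IsUnit.mk0 _ (neg_ne_zero.mpr (hc0 t))).map _).mul ht
  · rw [map_add, mconj_smul, mconj_smul, map_one, Matrix.mul_add, Matrix.mul_smul, Matrix.mul_smul,
      hA, Matrix.mul_one, add_comm]
    simp

theorem exists_real_of_mconj (X : G →* Matrix ι ι ℂ) (hX : ∀ g, mconj (X g) = X g) :
    ∃ Y : G →* Matrix ι ι ℝ, ∀ g, ((Y g).trace : ℂ) = (X g).trace := by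
  have hinj : Function.Injective (Complex.ofRealHom.mapMatrix : Matrix ι ι ℝ →+* Matrix ι ι ℂ) :=
    Matrix.map_injective Complex.ofReal_injective
  have h1 : ∀ g, Complex.ofRealHom.mapMatrix ((X g).map Complex.re) = X g := by
    intro g
    ext i j
    exact Complex.conj_eq_iff_re.mp (congrFun (congrFun (hX g) i) j)
  refine ⟨⟨⟨fun g => (X g).map Complex.re, hinj ?_⟩, fun g h => hinj ?_⟩, fun g => ?_⟩
  · rw [h1, map_one, map_one]
  · rw [map_mul Complex.ofRealHom.mapMatrix, h1, h1, h1, map_mul]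
  · rw [← h1 g]
    simp [Matrix.trace]

variable [Fintype G]

theorem exists_antilinear (ρ : Representation ℂ G (ι → ℂ)) [hρ : ρ.IsIrreducible]
    {M : Matrix ι ι ℂ} (hM0 : M ≠ 0) (hM : ∀ g, (matHom ρ g)ᵀ * M * matHom ρ g = M)
    (hs : Mᵀ = M) : ∃ A : Matrix ι ι ℂ, A * mconj A = 1 ∧
      ∀ g, A * mconj (matHom ρ g) = matHom ρ g * A := by
  set X := matHom ρ with hX
  set H : Matrix ι ι ℂ := ∑ g, (X g)ᴴ * X g with hH
  have hHpos : H.PosDef := by
    refine Matrix.posDef_sum Finset.univ_nonempty fun g _ => ?_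
    exact Matrix.PosDef.conjTranspose_mul_self _
      (Matrix.mulVec_injective_of_isUnit ((Group.isUnit g).map X))
  have hHinv : ∀ g, (X g)ᴴ * H * X g = H := by
    intro g
    rw [hH, Matrix.mul_sum, Matrix.sum_mul]
    refine Fintype.sum_equiv (Equiv.mulRight g) _ _ fun h => ?_
    simp [Matrix.mul_assoc]
  have hHu : IsUnit H.det := (Matrix.isUnit_iff_isUnit_det H).mp hHpos.isUnit
  set A := H⁻¹ * mconj M with hA
  have hHA : H * A = mconj M := by rw [hA, Matrix.mul_nonsing_inv_cancel_left _ _ hHu]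
  have hAu0 : IsUnit M → IsUnit A := fun hMu => by
    rw [hA]
    exact ((Matrix.isUnit_nonsing_inv_iff).mpr hHpos.isUnit).mul (hMu.map mconj)
  clear_value A
  have hAX : ∀ g, A * mconj (X g) = X g * A := by
    intro g
    have h1 : (X g)ᴴ * mconj M * mconj (X g) = mconj M := by
      rw [← mconj_transpose, ← map_mul, ← map_mul, hM]
    have hu : IsUnit ((X g)ᴴ * H) := ((Group.isUnit g).map X).star.mul hHpos.isUnit
    apply hu.mul_left_cancel
    rw [← Matrix.mul_assoc, Matrix.mul_assoc _ H A, hHA, h1, ← Matrix.mul_assoc, hHinv, hHA]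
  have hAX' : ∀ g, mconj A * X g = mconj (X g) * mconj A := by
    intro g
    have := congrArg mconj (hAX g)
    rwa [map_mul, map_mul, mconj_mconj] at this
  obtain ⟨c, hc⟩ := exists_eq_smul_of_commute ρ (Matrix.toLin' (A * mconj A)) (by
    intro g
    have e : ρ g = Matrix.toLin' (X g) := by rw [hX, matHom_apply, Matrix.toLin'_toMatrix']
    rw [e, Module.End.mul_eq_comp, Module.End.mul_eq_comp, ← Matrix.toLin'_mul,
      ← Matrix.toLin'_mul, Matrix.mul_assoc, hAX', ← Matrix.mul_assoc, hAX, Matrix.mul_assoc])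
  have hc' : A * mconj A = c • 1 := by
    apply Matrix.toLin'.injective
    rw [hc, map_smul, Matrix.toLin'_one]
  have hMu : IsUnit M := (Matrix.isUnit_iff_isUnit_det M).mpr
    (IsUnit.mk0 _ (det_ne_zero_of_invariant ρ hM0 hM))
  have hAu : IsUnit A := hAu0 hMu
  have hpos : (Aᴴ * H * A).PosDef :=
    hHpos.conjTranspose_mul_mul_same (Matrix.mulVec_injective_of_isUnit hAu)
  have hnt : Nonempty ι := by
    by_contra h
    rw [not_nonempty_iff] at h
    exact hM0 (Subsingleton.elim _ _)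
  have e1 : mconj (Aᴴ * H * A) = c • H := by
    have h1 : Aᴴ * H = M := by
      have := congrArg Matrix.conjTranspose hHA
      rw [Matrix.conjTranspose_mul, hHpos.isHermitian.eq] at this
      rw [this, ← mconj_transpose]
      conv_rhs => rw [← mconj_mconj M, ← hs]
      rfl
    rw [h1, map_mul, ← hHA, Matrix.mul_assoc, hc', Matrix.mul_smul, Matrix.mul_one]
  have e2 := congrArg Matrix.trace e1
  rw [trace_mconj, Matrix.trace_smul, smul_eq_mul] at e2
  have p1 := hpos.trace_pos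
  have p2 := hHpos.trace_pos
  have hcpos : 0 < c := by
    have p3 : 0 < conj (Aᴴ * H * A).trace := by
      rw [Complex.conj_eq_iff_im.mpr (Complex.pos_iff.mp p1).2.symm]; exact p1
    rw [e2] at p3
    exact (mul_pos_iff_of_pos_right p2).mp p3
  obtain ⟨hre, him⟩ := Complex.pos_iff.mp hcpos
  set r : ℝ := (Real.sqrt c.re)⁻¹ with hr
  refine ⟨(r : ℂ) • A, ?_, fun g => by rw [Matrix.smul_mul, hAX, Matrix.mul_smul]⟩
  rw [mconj_smul, Matrix.smul_mul, Matrix.mul_smul, hc', smul_smul, smul_smul, Complex.conj_ofReal]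
  have e3 : c = (c.re : ℂ) := Complex.ext rfl (by simpa using him.symm)
  have e4 : r * r * c.re = 1 := by
    rw [hr, ← mul_inv, Real.mul_self_sqrt hre.le, inv_mul_cancel₀ hre.ne']
  rw [e3, ← Complex.ofReal_mul, ← Complex.ofReal_mul, e4]
  simp

theorem exists_real_matrices {χ : G → ℂ} (hχ : IsIrrCharacter G χ) (h1 : fsInd χ = 1) :
    ∃ (n : ℕ) (Y : G →* Matrix (Fin n) (Fin n) ℝ), ∀ g, ((Y g).trace : ℂ) = χ g := by
  have h0 := classInner_conj_of_real hχ ((fsInd_ne_zero_iff hχ).mp (by rw [h1]; exact one_ne_zero))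
  obtain ⟨n, ρ, hρ, rfl⟩ := hχ
  rw [← trace_matHom] at h0 h1 ⊢
  obtain ⟨⟨M, hM0, hM⟩, h2⟩ := forms_matrix _ h0
  obtain ⟨A, hA, hAX⟩ := exists_antilinear ρ hM0 hM (by rw [h2 M hM, h1, one_smul])
  obtain ⟨P, ⟨P, rfl⟩, hP⟩ := exists_unit_of_mul_mconj hA
  let X' : G →* Matrix (Fin n) (Fin n) ℂ :=
    { toFun := fun g => ↑P⁻¹ * matHom ρ g * P
      map_one' := by simp
      map_mul' := fun g h => by simp [Matrix.mul_assoc] }
  obtain ⟨Y, hY⟩ := exists_real_of_mconj X' (by
    intro g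
    change mconj (P⁻¹.val * matHom ρ g * P.val) = P⁻¹.val * matHom ρ g * P.val
    have e1 : (P : Matrix (Fin n) (Fin n) ℂ) * mconj P⁻¹.val = A := by
      conv_lhs => rw [← hP]
      rw [Matrix.mul_assoc, ← map_mul, Units.mul_inv, map_one, Matrix.mul_one]
    rw [Matrix.mul_assoc P⁻¹.val, Units.eq_inv_mul_iff_mul_eq, map_mul, map_mul, ← Matrix.mul_assoc,
      ← Matrix.mul_assoc, e1, hAX, Matrix.mul_assoc, hP])
  refine ⟨n, Y, fun g => ?_⟩
  rw [hY]
  change (P⁻¹.val * matHom ρ g * P.val).trace = _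
  rw [Matrix.trace_mul_comm, ← Matrix.mul_assoc, Units.mul_inv, Matrix.one_mul]

theorem fsInd_eq_one_of_real_matrices {χ : G → ℂ} (hχ : IsIrrCharacter G χ)
    (Y : G →* Matrix ι ι ℝ) (hY : ∀ g, ((Y g).trace : ℂ) = χ g) : fsInd χ = 1 := by
  have h0 := classInner_conj_of_real hχ (fun g => by rw [← hY]; simp)
  let φ : Matrix ι ι ℝ →+* Matrix ι ι ℂ := Complex.ofRealHom.mapMatrix
  let X : G →* Matrix ι ι ℂ := φ.toMonoidHom.comp Y
  have hX : χ = fun g => (X g).trace := by
    funext g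
    rw [← hY]
    simp [X, φ, Matrix.trace]
  have hne : Nonempty ι := by
    by_contra h
    rw [not_nonempty_iff] at h
    apply hχ.apply_one_ne_zero
    rw [← hY]
    simp [Matrix.trace]
  have h0' := h0
  rw [hX] at h0'
  have hpos : (∑ g, (Y g)ᴴ * Y g).PosDef := by
    refine Matrix.posDef_sum Finset.univ_nonempty fun g _ => ?_
    exact Matrix.PosDef.conjTranspose_mul_self _
      (Matrix.mulVec_injective_of_isUnit ((Group.isUnit g).map Y))
  have h2 := (forms_matrix X h0').2 (∑ g, (X g)ᵀ * X g) (by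
    intro g
    rw [Matrix.mul_sum, Matrix.sum_mul]
    refine Fintype.sum_equiv (Equiv.mulRight g) _ _ fun h => ?_
    simp [Matrix.mul_assoc])
  rw [← hX] at h2
  have h3 : (∑ g, (X g)ᵀ * X g)ᵀ = ∑ g, (X g)ᵀ * X g := by simp [Matrix.transpose_sum]
  have h4 : ∑ g, (X g)ᵀ * X g = φ (∑ g, (Y g)ᴴ * Y g) := by
    rw [map_sum]
    refine Finset.sum_congr rfl fun g _ => ?_
    rw [map_mul]
    rfl
  have h5 : (fsInd χ - 1) • ∑ g, (X g)ᵀ * X g = 0 := by rw [sub_smul, ← h2, h3, one_smul, sub_self]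
  refine sub_eq_zero.mp ((smul_eq_zero.mp h5).resolve_right fun h6 => ?_)
  rw [h4] at h6
  exact (hpos.isUnit.map φ).ne_zero h6

end Cfsg.Agent.Ch.FS
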