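import Mathlib
import Cfsg.Agent.Ch.Brauer

/-!
# Solomon's induction theorem
-/

set_option autoImplicit false

namespace Cfsg.Agent.Ch

open Cfsg

variable {G : Type*} [Group G]

/-- `H` is `p`-quasi-elementary: it has a cyclic normal subgroup of order prime to `p` and `p`-power
index. -/
def IsQuasiElementary (p : ℕ) (H : Subgroup G) : Prop :=
  ∃ C : Subgroup G, C ≤ H ∧ H ≤ Subgroup.normalizer (C : Set G) ∧ IsCyclic C ∧
    Nat.Coprime (Nat.card C) p ∧ ∃ k : ℕ, C.relIndex H = p ^ k

theorem IsQuasiElementary.of_le [Finite G] {p : ℕ} (hp : p.Prime) {H U : Subgroup G}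
    (h : IsQuasiElementary p H) (hU : U ≤ H) : IsQuasiElementary p U := by
  obtain ⟨C, hCH, hHN, hC, hcop, k, hk⟩ := h
  refine ⟨C ⊓ U, inf_le_right, ?_, Subgroup.isCyclic_of_le inf_le_left,
    Nat.Coprime.coprime_dvd_left (Subgroup.card_dvd_of_le inf_le_left) hcop, ?_⟩
  · intro u hu
    rw [Subgroup.mem_normalizer_iff]
    intro x
    have h1 := Subgroup.mem_normalizer_iff.mp (hHN (hU hu)) x
    have h2 := Subgroup.mem_normalizer_iff.mp (Subgroup.le_normalizer hu) x
    simp only [Subgroup.mem_inf]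
    rw [← h1, ← h2]
  · have hN : (C.subgroupOf H).Normal := Subgroup.normal_subgroupOf_of_le_normalizer hHN
    have h1 : (C.subgroupOf H).relIndex (U.subgroupOf H) ∣ p ^ k :=
      hk ▸ Subgroup.relIndex_dvd_index_of_normal _ _
    rw [Subgroup.relIndex_subgroupOf hU] at h1
    rw [Subgroup.inf_relIndex_right]
    obtain ⟨j, -, hj⟩ := (Nat.dvd_prime_pow hp).mp h1
    exact ⟨j, hj⟩

variable [Fintype G]

/-- The product of two transitive permutation characters, as a sum over double cosets. -/
theorem indFun_one_mul_indFun_one (H K : Subgroup G)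
    [Fintype (DoubleCoset.Quotient (K : Set G) (H : Set G))] :
    indFun H (fun _ => 1) * indFun K (fun _ => 1) =
      ∑ q : DoubleCoset.Quotient (K : Set G) (H : Set G),
        indFun ((mackeySub K H q.out).map H.subtype) (fun _ => 1) := by
  have := Fintype.ofFinite H
  have h1 := indFun_mul_res H (fun _ => 1) (indFun_isClassFunction K (fun _ => 1))
  have h2 : (fun h : H => (1 : ℂ) * indFun K (fun _ => 1) h) =
      ∑ q : DoubleCoset.Quotient (K : Set G) (H : Set G),
        indFun (mackeySub K H q.out) (fun _ => 1) := by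
    funext h
    rw [one_mul, mackey K H (IsClassFunction.const 1) h, Finset.sum_apply]
    rfl
  rw [h2, indFun_sum] at h1
  refine Eq.trans h1.symm (Finset.sum_congr rfl fun q _ => ?_)
  exact indFun_indFun H _ _ _ (fun _ => rfl)

theorem exists_indFun_one_mul_indFun_one [Fintype (Subgroup G)] (H K : Subgroup G) :
    ∃ a : Subgroup G → ℕ, (∀ U, a U ≠ 0 → U ≤ H) ∧
      indFun H (fun _ => 1) * indFun K (fun _ => 1) =
        ∑ U : Subgroup G, (a U : ℂ) • indFun U (fun _ => 1) := by
  classical
  have : Finite (DoubleCoset.Quotient (K : Set G) (H : Set G)) := Quotient.finite _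
  have := Fintype.ofFinite (DoubleCoset.Quotient (K : Set G) (H : Set G))
  let F : DoubleCoset.Quotient (K : Set G) (H : Set G) → Subgroup G :=
    fun q => (mackeySub K H q.out).map H.subtype
  refine ⟨fun U => (Finset.univ.filter fun q => F q = U).card, fun U hU => ?_, ?_⟩
  · obtain ⟨q, hq⟩ := Finset.card_ne_zero.mp hU
    rw [← (Finset.mem_filter.mp hq).2]
    exact Subgroup.map_subtype_le _
  · rw [indFun_one_mul_indFun_one, ← Finset.sum_fiberwise Finset.univ F]
    refine Finset.sum_congr rfl fun U _ => ?_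
    rw [Nat.cast_smul_eq_nsmul, ← Finset.sum_const]
    refine Finset.sum_congr rfl fun q hq => ?_
    have := (Finset.mem_filter.mp hq).2
    subst this
    rfl

/-- The permutation characters on the cosets of the subgroups in a family. -/
def permSet (G : Type*) [Group G] [Fintype G] (𝓗 : Subgroup G → Prop) : Set (G → ℂ) :=
  {f | ∃ H : Subgroup G, 𝓗 H ∧ f = indFun H (fun _ => 1)}

theorem mul_mem_span_permSet {𝓗 : Subgroup G → Prop} (h𝓗 : ∀ H U, 𝓗 H → U ≤ H → 𝓗 U)
    {f g : G → ℂ} (hf : f ∈ Submodule.span ℤ (permSet G 𝓗))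
    (hg : g ∈ Submodule.span ℤ (permSet G 𝓗)) : f * g ∈ Submodule.span ℤ (permSet G 𝓗) := by
  have h := Submodule.mul_mem_mul hf hg
  rw [Submodule.span_mul_span] at h
  refine Submodule.span_le.mpr ?_ h
  rintro _ ⟨_, ⟨H, hH, rfl⟩, _, ⟨K, -, rfl⟩, rfl⟩
  have : Finite (DoubleCoset.Quotient (K : Set G) (H : Set G)) := Quotient.finite _
  have := Fintype.ofFinite (DoubleCoset.Quotient (K : Set G) (H : Set G))
  simp only [SetLike.mem_coe]
  rw [indFun_one_mul_indFun_one]
  exact Submodule.sum_mem _ fun q _ =>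
    Submodule.subset_span ⟨_, h𝓗 H _ hH (Subgroup.map_subtype_le _), rfl⟩

/-- **Solomon's induction theorem**, local form. -/
theorem solomon_local {p : ℕ} (hp : p.Prime) :
    ∃ m : ℕ, ¬ p ∣ m ∧
      (fun _ : G => (m : ℂ)) ∈ Submodule.span ℤ (permSet G (IsQuasiElementary p)) := by
  choose H hH n hn hnd using fun y : G => exists_quasiElementary_indFun_one hp y
  have h := algebraMap_prod_mem (A := ℤ) (B := ℂ)
    (Submodule.span ℤ (permSet G (IsQuasiElementary p)))
    (fun a ha b hb => mul_mem_span_permSet (fun _ _ h hU => h.of_le hp hU) ha hb)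
    (fun y => indFun (H y) (fun _ => 1)) (fun y => (n y : ℤ))
    (fun y => Submodule.subset_span ⟨H y, hH y, rfl⟩) (fun y => by simp [hn])
  refine ⟨∏ y, n y, ?_, ?_⟩
  · rw [Prime.dvd_finsetProd_iff hp.prime]
    rintro ⟨y, -, hy⟩
    exact hnd y hy
  · convert h using 1
    funext x
    rw [← Nat.cast_prod, map_natCast]
    rfl

/-- **Solomon's induction theorem**. -/
theorem solomon_one :
    (fun _ : G => (1 : ℂ)) ∈
      Submodule.span ℤ (permSet G fun H => ∃ p : ℕ, p.Prime ∧ IsQuasiElementary p H) := by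
  let V := Submodule.span ℤ (permSet G fun H => ∃ p : ℕ, p.Prime ∧ IsQuasiElementary p H)
  have h := one_mem_of_forall_prime
    (V.comap (LinearMap.toSpanSingleton ℤ (G → ℂ) (fun _ => 1))) (fun p hp => by
      obtain ⟨m, hm, h⟩ := solomon_local (G := G) hp
      refine ⟨m, ?_, by exact_mod_cast hm⟩
      rw [Submodule.mem_comap, LinearMap.toSpanSingleton_apply]
      have h2 : (fun _ : G => (m : ℂ)) ∈ V := by
        refine Submodule.span_mono ?_ h
        rintro _ ⟨H, hH, rfl⟩
        exact ⟨H, ⟨p, hp, hH⟩, rfl⟩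
      convert h2 using 1
      funext x
      simp)
  simpa using h

theorem exists_coeff_of_mem_span_permSet [Fintype (Subgroup G)] {𝓗 : Subgroup G → Prop} {f : G → ℂ}
    (hf : f ∈ Submodule.span ℤ (permSet G 𝓗)) :
    ∃ a : Subgroup G → ℤ, (∀ H, a H ≠ 0 → 𝓗 H) ∧
      f = ∑ H : Subgroup G, (a H : ℂ) • indFun H (fun _ => 1) := by
  classical
  induction hf using Submodule.span_induction with
  | mem x hx =>
    obtain ⟨H, hH, rfl⟩ := hx
    refine ⟨Pi.single H 1, fun U hU => ?_, ?_⟩
    · by_cases h : U = H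
      · exact h ▸ hH
      · exact absurd (Pi.single_eq_of_ne h _) hU
    · rw [Finset.sum_eq_single H]
      · simp
      · intro U _ h
        simp [Pi.single_eq_of_ne h]
      · simp
  | zero => exact ⟨0, by simp, by simp⟩
  | add x y _ _ hx hy =>
    obtain ⟨a, ha, rfl⟩ := hx
    obtain ⟨b, hb, rfl⟩ := hy
    refine ⟨a + b, fun U hU => ?_, ?_⟩
    · by_cases h : a U = 0
      · exact hb U (by simpa [h] using hU)
      · exact ha U h
    · rw [← Finset.sum_add_distrib]
      simp [add_smul]
  | smul c x _ hx =>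
    obtain ⟨a, ha, rfl⟩ := hx
    refine ⟨c • a, fun U hU => ha U fun h => hU (by simp [h]), ?_⟩
    rw [Finset.smul_sum]
    refine Finset.sum_congr rfl fun U _ => ?_
    simp only [Pi.smul_apply, smul_eq_mul, Int.cast_mul]
    rw [← Int.cast_smul_eq_zsmul ℂ, smul_smul]

end Cfsg.Agent.Ch
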